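import Cfsg.Agent.DGN.Defs
import Cfsg.Agent.H3.PGroup

set_option autoImplicit false

namespace Cfsg.Agent.DGN

theorem perm_hom (k : Type*) {P : Type*} [Field k] {p : ℕ} [Fact p.Prime] [CharP k p] [Group P]
    [Finite P] (hP : IsPGroup p P) (hc : ∀ g h : P, g * h = h * g) (Q : Subgroup P) :
    ∃ ψ : P → k, (∀ g h, ψ (g * h) = ψ g + ψ h) ∧ (∀ g ∈ Q, ψ g = 0) ∧ (Q ≠ ⊤ → ∃ g, ψ g ≠ 0) := by
  rcases eq_top_or_exists_le_coatom Q with h | ⟨M, hM, h⟩
  · exact ⟨0, by simp, by simp, fun e => (e h).elim⟩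
  have : M.Normal := ⟨fun n hn g => by rwa [hc g, mul_inv_cancel_right]⟩
  let e : P ⧸ M ≃* Multiplicative (ZMod p) :=
    mulEquivOfPrimeCardEq (H3.index_eq_of_isCoatom hP hM) (by simp)
  refine ⟨fun g => ZMod.castHom (dvd_refl p) k (e g).toAdd, fun g h => by simp, fun g hg => by
    simp [(QuotientGroup.eq_one_iff g).2 (h hg)], fun _ => ?_⟩
  obtain ⟨g, -, hg⟩ := SetLike.exists_of_lt hM.1.lt_top
  exact ⟨g, fun e1 => hg ((QuotientGroup.eq_one_iff g).1 (e.map_eq_one_iff.1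
    (toAdd_eq_zero.1 ((map_eq_zero _).1 e1))))⟩

theorem perm_coc (k : Type*) {P Ω : Type*} [Field k] {p : ℕ} [Fact p.Prime] [CharP k p] [Group P]
    [Finite P] (hP : IsPGroup p P) (hc : ∀ g h : P, g * h = h * g) (φ : P →* Equiv.Perm Ω) :
    ∃ (γ : Ω → k) (χ : Ω → P → k), (∀ g x, γ (φ g x) = χ x g + γ x) ∧ (∀ g x, χ (φ g x) = χ x) ∧
      ∀ x, (∀ g, χ x g = 0) → ∀ g, φ g x = x := by
  let _ : MulAction P Ω := MulAction.compHom Ω φ
  choose ψ h1 h2 h3 using fun z : Ω => perm_hom k hP hc (MulAction.stabilizer P z)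
  let r : Ω → Ω := fun x => (Quotient.mk (MulAction.orbitRel P Ω) x).out
  have hr : ∀ (g : P) x, r (φ g x) = r x := fun g x =>
    congrArg Quotient.out (Quotient.sound (MulAction.mem_orbit x g))
  choose a ha using fun x => show ∃ g : P, g • r x = x from
    (MulAction.orbitRel P Ω).symm (Quotient.mk_out x)
  refine ⟨fun x => ψ (r x) (a x), fun x => ψ (r x), fun g x => ?_, fun g x => by simp only [hr],
    fun x hx g => ?_⟩
  · have := h2 (r x) ((g * a x)⁻¹ * a (φ g x)) (by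
      rw [MulAction.mem_stabilizer_iff, mul_smul, inv_smul_eq_iff, mul_smul, ha, ← hr g, ha]; rfl)
    simp only [hr]
    rw [← h1, ← add_zero (ψ (r x) (g * a x)), ← this, ← h1, mul_inv_cancel_left]
  · have : MulAction.stabilizer P (r x) = ⊤ := by
      by_contra h
      obtain ⟨g, hg⟩ := h3 _ h
      exact hg (hx g)
    have h4 : ∀ g : P, g • r x = r x := fun g => this.ge (Subgroup.mem_top g)
    rw [← ha x, h4]
    exact h4 g

theorem perm_pow {R ι : Type*} [Ring R] {p : ℕ} (hp : p.Prime) (h0 : (p : R) = 0) (n : ℕ)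
    (f : ι → R) (hc : ∀ i j, Commute (f i) (f j)) (s : Finset ι) :
    (∑ i ∈ s, f i) ^ p ^ n = ∑ i ∈ s, f i ^ p ^ n := by
  classical
  induction s using Finset.induction_on with
  | empty => simp [hp.ne_zero]
  | insert a s ha ih =>
    obtain ⟨r, hr⟩ := (Commute.sum_right s f _ fun j _ => hc a j).exists_add_pow_prime_pow_eq hp n
    rw [Finset.sum_insert ha, Finset.sum_insert ha, hr, ih, h0, zero_mul, zero_mul, zero_mul,
      add_zero]

theorem perm {k P Ω : Type*} [Field k] {p : ℕ} [Fact p.Prime] [CharP k p] [Group P] [Fintype P]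
    (hP : IsPGroup p P) (hc : ∀ g h : P, g * h = h * g) [Finite Ω] (φ : P →* Equiv.Perm Ω)
    (y : Ω → GF P k) (hy : ∀ x, ∑ g, tv k g * (y (φ g⁻¹ x) - y x) = 0)
    (h0 : ∀ x, (∀ g, φ g x = x) → y x = 0) :
    ∃ w : Ω → GF P k, ∀ x, y x = ∑ g, tv k g * (w (φ g⁻¹ x) - w x) := by
  have hp : p.Prime := Fact.out
  obtain ⟨γ, χ, h1, h2, h3⟩ := perm_coc k hP hc φ
  obtain ⟨s, hs⟩ := hP.exists_card_eq
  have : CharP (GF P k) p := charP_of_injective_algebraMap (algebraMap k _).injective p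
  let c : P → Ω → GF P k := fun g x => tv k g * algebraMap k _ (χ x g)
  let T : P → Module.End (GF P k) (Ω → GF P k) := fun g =>
    ⟨⟨fun v x => c g x * v (φ g⁻¹ x), fun v w => funext fun x => mul_add _ _ _⟩,
      fun a v => funext fun x => mul_left_comm _ _ _⟩
  let θ : Module.End (GF P k) (Ω → GF P k) :=
    ⟨⟨fun v x => ∑ g, tv k g * (v (φ g⁻¹ x) - v x), fun v w => funext fun x => by
      simp only [Pi.add_apply, ← Finset.sum_add_distrib]
      exact Finset.sum_congr rfl fun g _ => by ring⟩, fun a v => funext fun x => by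
      simp only [Pi.smul_apply, smul_eq_mul, RingHom.id_apply, Finset.mul_sum]
      exact Finset.sum_congr rfl fun g _ => by ring⟩
  have hφ : ∀ g h x, φ g⁻¹ (φ h⁻¹ x) = φ h⁻¹ (φ g⁻¹ x) := fun g h x => by
    rw [← Equiv.Perm.mul_apply, ← map_mul, hc, map_mul, Equiv.Perm.mul_apply]
  have hT : ∀ g n v x, (T g ^ n) v x = c g x ^ n * v (φ (g⁻¹ ^ n) x) := fun g n => by
    induction n with
    | zero => simp
    | succ n ih =>
      intro v x
      rw [pow_succ', Module.End.mul_apply]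
      change c g x * (T g ^ n) v (φ g⁻¹ x) = _
      rw [ih, pow_succ', pow_succ g⁻¹, map_mul, mul_assoc]
      simp only [c, h2, Equiv.Perm.mul_apply, mul_assoc]
  have c1 : Commute θ (∑ g, T g) := Commute.sum_right _ _ _ fun g _ => by
    refine LinearMap.ext fun v => funext fun x => ?_
    change ∑ h, tv k h * (c g (φ h⁻¹ x) * v (φ g⁻¹ (φ h⁻¹ x)) - c g x * v (φ g⁻¹ x)) =
      c g x * ∑ h, tv k h * (v (φ h⁻¹ (φ g⁻¹ x)) - v (φ g⁻¹ x))
    rw [Finset.mul_sum]
    exact Finset.sum_congr rfl fun h _ => by simp only [c, h2, hφ g h]; ring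
  have c2 : ∀ v x, ((∑ g, T g) ^ p ^ s) v x = (∑ g, c g x) ^ p ^ s * v x := fun v x => by
    rw [perm_pow hp (by rw [← map_natCast (algebraMap (GF P k) _), CharP.cast_eq_zero, map_zero]) s T
      fun g h => LinearMap.ext fun v => funext fun x => by
        change c g x * (c h (φ g⁻¹ x) * v (φ h⁻¹ (φ g⁻¹ x))) =
          c h x * (c g (φ h⁻¹ x) * v (φ g⁻¹ (φ h⁻¹ x)))
        simp only [c, h2, hφ g h]; ring,
      sum_pow_char_pow, Finset.sum_mul, LinearMap.sum_apply, Finset.sum_apply]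
    exact Finset.sum_congr rfl fun g _ => by rw [hT, ← hs, pow_card_eq_one', map_one]; rfl
  have c3 : (∑ g, T g) y = θ fun x => -(algebraMap k _ (γ x) * y x) := funext fun x => by
    rw [LinearMap.sum_apply, Finset.sum_apply, ← sub_zero (∑ g, T g y x),
      ← mul_zero (algebraMap k (GF P k) (γ x)), ← hy x, Finset.mul_sum, ← Finset.sum_sub_distrib]
    refine Finset.sum_congr rfl fun g _ => ?_
    have := h1 g (φ g⁻¹ x)
    rw [← Equiv.Perm.mul_apply, ← map_mul, mul_inv_cancel, map_one, Equiv.Perm.one_apply, h2] at this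
    change c g x * y (φ g⁻¹ x) - _ = tv k g * (-(_ * _) - -(_ * _))
    simp only [c, this, map_add]
    ring
  obtain ⟨n, hn⟩ := Nat.exists_eq_succ_of_ne_zero (pow_ne_zero s hp.ne_zero)
  obtain ⟨u, hu⟩ : ∃ u, ∀ x, (∑ g, c g x) ^ p ^ s * y x = θ u x :=
    ⟨((∑ g, T g) ^ n) fun x => -(algebraMap k _ (γ x) * y x), fun x => by
      rw [← c2, hn, pow_succ, Module.End.mul_apply, c3, ← Module.End.mul_apply,
        ← (c1.pow_right n).eq, Module.End.mul_apply]⟩
  refine ⟨fun x => ((∑ g, c g x) ^ p ^ s)⁻¹ * u x, fun x => ?_⟩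
  have e : ∑ g, tv k g * (((∑ h, c h (φ g⁻¹ x)) ^ p ^ s)⁻¹ * u (φ g⁻¹ x) -
      ((∑ h, c h x) ^ p ^ s)⁻¹ * u x) = ((∑ h, c h x) ^ p ^ s)⁻¹ * θ u x := by
    change _ = _ * ∑ g, tv k g * (u (φ g⁻¹ x) - u x)
    rw [Finset.mul_sum]
    exact Finset.sum_congr rfl fun g _ => by simp only [c, h2]; ring
  rw [e, ← hu]
  by_cases h4 : ∑ g, c g x = 0
  · rw [h0 x (h3 x ?_), mul_zero, mul_zero]
    refine Fintype.linearIndependent_iff.1 (MvPolynomial.linearIndependent_X P k) _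
      (IsFractionRing.injective (MvPolynomial P k) (GF P k) ?_)
    rw [map_zero, ← h4, map_sum]
    refine Finset.sum_congr rfl fun g _ => ?_
    rw [Algebra.smul_def, map_mul, ← IsScalarTower.algebraMap_apply, mul_comm]; rfl
  · rw [inv_mul_cancel_left₀ (pow_ne_zero _ h4)]

end Cfsg.Agent.DGN
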