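import Cfsg.Agent.DGN.Schur
import Cfsg.Agent.DGN.Perm

/-!
The kernel of the generic element acting by conjugation on the matrix algebra spanned by a normal
`p'`-subgroup.
-/

set_option autoImplicit false

namespace Cfsg.Agent.DGN

open Matrix Subgroup

theorem cm_smul {ι k n : Type*} [Field k] (x : k) (A : Matrix n n k) :
    cm ι (x • A) = algebraMap k (GF ι k) x • cm ι A := by
  ext i j
  simp [cm_apply]

theorem cm_sum {ι k n κ : Type*} [Field k] (s : Finset κ) (A : κ → Matrix n n k) :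
    cm ι (∑ x ∈ s, A x) = ∑ x ∈ s, cm ι (A x) := by
  ext i j
  simp [cm_apply, Matrix.sum_apply]

theorem ker_ths_aux {F Γ n : Type*} [Field F] [Group Γ] [Fintype n] [DecidableEq n] [Nonempty n]
    (N P : Subgroup Γ) [Fintype N] [Fintype P] (hN : (Fintype.card N : F) ≠ 0) (t : P → F)
    (φ : P →* Equiv.Perm N) (hφ : ∀ (g : P) (x : N), ((φ g x : N) : Γ) = g * x * (g : Γ)⁻¹)
    (hperm : ∀ y : N → F, (∀ x, ∑ g, t g * (y (φ g⁻¹ x) - y x) = 0) →
      (∀ x, (∀ g, φ g x = x) → y x = 0) → ∃ w : N → F, ∀ x, y x = ∑ g, t g * (w (φ g⁻¹ x) - w x))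
    (r : Γ →* Matrix n n F) (hr : Submodule.span F (Set.range fun x : N => r x) = ⊤)
    {ε : Matrix n n F} (hε : ∀ g ∈ P, ε * r g = r g * ε)
    (hc : ∀ c ∈ N ⊓ centralizer (P : Set Γ), ∃ x : F, ε * r c * ε = x • ε)
    (B : Matrix n n F) (hB : ∑ g : P, t g • (r g * B * r (g : Γ)⁻¹ - B) = 0) :
    ∃ (x : F) (B' : Matrix n n F), ε * B * ε =
      x • ε + ∑ g : P, t g • (r g * B' * r (g : Γ)⁻¹ - B') := by
  classical
  obtain ⟨hd, hs⟩ := schur hN (r.comp N.subtype) hr
  obtain ⟨y, hBy, hy⟩ : ∃ y : N → F, B = ∑ x : N, y x • r x ∧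
      ∀ x, ∑ g, t g * (y (φ g⁻¹ x) - y x) = 0 := by
    refine ⟨fun x => ((Fintype.card n : F) / Fintype.card N) * (B * r (x : Γ)⁻¹).trace, ?_,
      fun x => ?_⟩
    · have := hs B
      simp only [MonoidHom.comp_apply, coe_subtype, InvMemClass.coe_inv] at this
      simp only [mul_smul, ← Finset.smul_sum]
      rw [this, smul_smul, div_mul_div_cancel₀ hN, div_self hd, one_smul]
    · have e := congrArg (fun A => ((Fintype.card n : F) / Fintype.card N) *
        (A * r (x : Γ)⁻¹).trace) hB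
      simp only [Finset.sum_mul, trace_sum, smul_mul_assoc, trace_smul, sub_mul, trace_sub,
        zero_mul, trace_zero, mul_zero, Finset.mul_sum, smul_eq_mul] at e
      rw [← e]
      refine Finset.sum_congr rfl fun g _ => ?_
      have : (r g * B * r (g : Γ)⁻¹ * r (x : Γ)⁻¹).trace = (B * r (φ g⁻¹ x : Γ)⁻¹).trace := by
        rw [mul_assoc, mul_assoc, trace_mul_comm, mul_assoc, ← map_mul, ← map_mul, hφ]
        simp [mul_assoc]
      rw [this]
      ring
  have hfix : ∀ (g : P) (x : N), (∀ g', φ g' (φ g x) = φ g x) ↔ ∀ g', φ g' x = x := fun g x => by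
    refine ⟨fun h g' => ?_, fun h g' => by rw [h g, h g']⟩
    have e : φ g x = x := by
      conv_rhs => rw [← (φ g).symm_apply_apply x, ← Equiv.Perm.inv_def, ← map_inv, h]
    rw [← e, h]
  obtain ⟨w, hw⟩ := hperm (fun x => if ∀ g, φ g x = x then 0 else y x) (fun x => by
      simp only [hfix]
      split_ifs
      · simp
      · exact hy x) (fun x hx => if_pos hx)
  set W := ∑ x : N, w x • r x with hW
  have hth : ∑ g : P, t g • (r g * W * r (g : Γ)⁻¹ - W) =
      ∑ x : N, (if ∀ g, φ g x = x then 0 else y x) • r x := by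
    simp only [hw, Finset.sum_smul, hW]
    rw [Finset.sum_comm]
    refine Finset.sum_congr rfl fun g _ => ?_
    simp only [mul_smul, sub_smul, ← Finset.smul_sum, Finset.sum_sub_distrib, Finset.mul_sum,
      Finset.sum_mul, mul_smul_comm, smul_mul_assoc]
    congr 2
    refine Fintype.sum_equiv (φ g) _ _ fun x => ?_
    rw [map_inv φ, Equiv.Perm.inv_def, Equiv.symm_apply_apply, hφ, map_mul, map_mul]
  have hc' : ∀ x : N, ∃ z : F, (∀ g, φ g x = x) → ε * r x * ε = z • ε := by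
    intro x
    by_cases hx : ∀ g, φ g x = x
    · obtain ⟨z, hz⟩ := hc x ⟨x.2, mem_centralizer_iff.mpr fun g hg =>
        mul_inv_eq_iff_eq_mul.mp ((hφ ⟨g, hg⟩ x).symm.trans (congrArg Subtype.val (hx ⟨g, hg⟩)))⟩
      exact ⟨z, fun _ => hz⟩
    · exact ⟨0, fun h => absurd h hx⟩
  choose z hz using hc'
  refine ⟨∑ x : N, if ∀ g, φ g x = x then y x * z x else 0, ε * W * ε, ?_⟩
  have e : ∑ g : P, t g • (r g * (ε * W * ε) * r (g : Γ)⁻¹ - ε * W * ε) =
      ε * (∑ g : P, t g • (r g * W * r (g : Γ)⁻¹ - W)) * ε := by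
    simp only [Finset.mul_sum, Finset.sum_mul, mul_smul_comm, smul_mul_assoc, mul_sub, sub_mul]
    refine Finset.sum_congr rfl fun g _ => ?_
    congr 2
    simp only [← mul_assoc, ← hε _ g.2]
    simp only [mul_assoc, hε _ (inv_mem g.2)]
  rw [e, hth, hBy]
  simp only [Finset.mul_sum, Finset.sum_mul, Finset.sum_smul, ← Finset.sum_add_distrib,
    mul_smul_comm, smul_mul_assoc]
  refine Finset.sum_congr rfl fun x _ => ?_
  split_ifs with hx
  · rw [hz x hx, zero_smul, add_zero, mul_smul]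
  · rw [zero_smul, zero_add]

theorem ker_ths {k Γ n : Type*} [Field k] {p : ℕ} [Fact p.Prime] [CharP k p] [Group Γ] [Finite Γ]
    [Fintype n] [DecidableEq n] [Nonempty n] (N P : Subgroup Γ) [hNn : N.Normal] [Fintype P]
    (hN : ¬ p ∣ Nat.card N) (hP : IsPGroup p P) (hab : ∀ x ∈ P, ∀ y ∈ P, x * y = y * x)
    (ρ : Γ →* Matrix n n k) (hρ : Submodule.span k (Set.range fun x : N => ρ x) = ⊤)
    {ε : Matrix n n k} (hε : ∀ g ∈ P, ε * ρ g = ρ g * ε)
    (hc : ∀ c ∈ N ⊓ centralizer (P : Set Γ), ∃ x : k, ε * ρ c * ε = x • ε)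
    (B : Matrix n n (GF P k)) (hB : ths (fun g : P => ρ g) (fun g : P => ρ (g : Γ)⁻¹) B = 0) :
    ∃ (x : GF P k) (B' : Matrix n n (GF P k)), cm P ε * B * cm P ε =
      x • cm P ε + ths (fun g : P => ρ g) (fun g : P => ρ (g : Γ)⁻¹) B' := by
  have := Fintype.ofFinite N
  have hcard : (Fintype.card N : GF P k) ≠ 0 := by
    rw [← map_natCast (algebraMap k (GF P k)), _root_.map_ne_zero, Ne, CharP.cast_eq_zero_iff k p,
      ← Nat.card_eq_fintype_card]
    exact hN
  exact ker_ths_aux N P hcard (tv k) ((MulAut.toPerm N).comp (MulAut.conjNormal.comp P.subtype))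
    (fun _ _ => rfl) (perm hP (fun g h => Subtype.ext (hab _ g.2 _ h.2)) _)
    ((algebraMap k (GF P k)).mapMatrix.toMonoidHom.comp ρ) (span_cm hρ)
    (fun g hg => (cm_mul _ _).symm.trans ((congrArg _ (hε g hg)).trans (cm_mul _ _)))
    (fun c h => (hc c h).imp' (algebraMap k _) fun x hx => by
      rw [← cm_smul, ← hx, cm_mul, cm_mul]; rfl) B hB

end Cfsg.Agent.DGN
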