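import Cfsg.Agent.DGN.Defs

/-! Descent of a semilinear projective representation from the field of rational functions. -/

set_option autoImplicit false

namespace Cfsg.Agent.DGN

namespace Descx

open MvPolynomial

variable {k ι m H : Type*} [Field k]

/-- an invertible matrix that normalizes the constant matrices is a multiple of a constant one -/
theorem scal [Fintype m] [DecidableEq m] [Nonempty m] {A B : Matrix m m (GF ι k)} (h : A * B = 1)
    (hk : ∀ X : Matrix m m k, ∃ Y, A * cm ι X = cm ι Y * A) :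
    ∃ (l : GF ι k) (s : Matrix m m k), l ≠ 0 ∧ (∃ i j, s i j ≠ 0) ∧ A = l • cm ι s := by
  obtain ⟨b⟩ := ‹Nonempty m›
  obtain ⟨j, hj, hj'⟩ : ∃ j, B b j ≠ 0 ∧ A j b ≠ 0 := by
    by_contra! c
    have h' : B * A = 1 := mul_eq_one_comm.1 h
    have := congrFun (congrFun h' b) b
    rw [Matrix.mul_apply, Matrix.one_apply_eq, Finset.sum_eq_zero fun j _ => by
      by_cases e : B b j = 0
      · rw [e, zero_mul]
      · rw [c j e, mul_zero]] at this
    exact zero_ne_one this
  choose Y hY using fun a => hk (Matrix.single a b 1)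
  have e : ∀ i a, A i a * B b j = algebraMap k _ (Y a i j) := fun i a => by
    have h1 : A * cm ι (Matrix.single a b 1) * B = cm ι (Y a) := by rw [hY, mul_assoc, h, mul_one]
    have h2 : cm ι (Matrix.single a b (1 : k)) = Matrix.single a b 1 := by
      ext x y; simp [cm_apply, Matrix.single_apply, apply_ite]
    rw [← cm_apply, ← h1, h2, Matrix.mul_assoc, Matrix.mul_apply,
      Finset.sum_eq_single a (fun x _ hx => by simp [Matrix.single_mul_apply_of_ne, hx]) (by simp)]
    simp
  refine ⟨(B b j)⁻¹, Matrix.of fun i a => Y a i j, inv_ne_zero hj, ⟨j, b, fun c => ?_⟩, ?_⟩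
  · have := e j b
    rw [show Y b j j = 0 from c, map_zero] at this
    exact mul_ne_zero hj' hj this
  · ext i a
    rw [Matrix.smul_apply, cm_apply, Matrix.of_apply, ← e, smul_eq_mul]
    field_simp

theorem exists_gcd [Finite H] (f : H → MvPolynomial ι k) :
    ∃ y : MvPolynomial ι k, ∀ a b, a ∣ b * y ↔ ∀ h, a ∣ b * f h := by
  classical
  have := Fintype.ofFinite H
  let _ : StrongNormalizationMonoid (MvPolynomial ι k) := UniqueFactorizationMonoid.strongNormalizationMonoid
  let _ := UniqueFactorizationMonoid.toNormalizedGCDMonoid (MvPolynomial ι k)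
  exact ⟨Finset.univ.gcd f, fun a b => by
    rw [← (Finset.gcd_mul_left' _ _ b).dvd_iff_dvd_right, Finset.dvd_gcd_iff]; simp⟩

/-- a cocycle with values in `F^× / k^×` is a coboundary -/
theorem cob [Group H] [Finite H] (τ : H →* Equiv.Perm ι) (l : H → GF ι k) (h0 : ∀ g, l g ≠ 0)
    (hl : ∀ g h, ∃ c : k, l (g * h) = algebraMap k _ c * (l g * sig k (τ g) (l h))) :
    ∃ y : GF ι k, y ≠ 0 ∧ ∀ g, ∃ r : k, sig k (τ g) y / y * l g = algebraMap k _ r := by
  classical
  have := Fintype.ofFinite H
  have inj := IsFractionRing.injective (MvPolynomial ι k) (GF ι k)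
  have hC : ∀ c : k, algebraMap (MvPolynomial ι k) (GF ι k) (C c) = algebraMap k _ c := fun c =>
    (IsScalarTower.algebraMap_apply k (MvPolynomial ι k) (GF ι k) c).symm
  obtain ⟨d, hd⟩ := IsLocalization.exist_integer_multiples_of_finite
    (nonZeroDivisors (MvPolynomial ι k)) l
  let D : MvPolynomial ι k := ∏ g, rename (τ g) d.1
  have D0 : D ≠ 0 := Finset.prod_ne_zero_iff.2 fun g _ c => nonZeroDivisors.coe_ne_zero d
    (rename_injective _ (τ g).injective (c.trans (map_zero _).symm))
  have DI : ∀ g, rename (τ g) D = D := fun g => by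
    rw [map_prod]
    exact Fintype.prod_equiv (Equiv.mulLeft g) _ _ fun h => by simp [rename_rename]
  have hf : ∀ h, ∃ f : MvPolynomial ι k, algebraMap _ (GF ι k) f = algebraMap _ _ D * l h := fun h => by
    obtain ⟨e, he⟩ : d.1 ∣ D := by
      have := Finset.dvd_prod_of_mem (fun g => rename (τ g) d.1) (Finset.mem_univ 1)
      simpa using this
    obtain ⟨f, hf⟩ := hd h
    exact ⟨e * f, by rw [he, map_mul, map_mul, hf, Algebra.smul_def]; ring⟩
  choose f hf using hf
  have D1 : algebraMap _ (GF ι k) D ≠ 0 := fun c => D0 (inj (c.trans (map_zero _).symm))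
  have f0 : ∀ h, f h ≠ 0 := fun h c => mul_ne_zero D1 (h0 h) (by rw [← hf, c, map_zero])
  have co : ∀ g h, Associated (D * f (g * h)) (f g * rename (τ g) (f h)) := fun g h => by
    obtain ⟨c, hc⟩ := hl g h
    have c0 : c ≠ 0 := fun e => h0 (g * h) (by rw [hc, e, map_zero, zero_mul])
    have : D * f (g * h) = C c * (f g * rename (τ g) (f h)) := inj (by
      rw [map_mul, map_mul, map_mul, ← sig_algebraMap, hf, hf, hf, map_mul, sig_algebraMap, DI, hc, hC]; ring)
    rw [this]
    exact associated_unit_mul_left _ _ ((isUnit_iff_ne_zero.2 c0).map C)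
  obtain ⟨y, hy⟩ := exists_gcd f
  have yf : ∀ h, y ∣ f h := fun h => by simpa using (hy y 1).1 (by simp) h
  have y0 : y ≠ 0 := fun c => f0 1 (zero_dvd_iff.1 (c ▸ yf 1))
  have y1 : algebraMap _ (GF ι k) y ≠ 0 := fun c => y0 (inj (c.trans (map_zero _).symm))
  refine ⟨algebraMap _ _ y, y1, fun g => ?_⟩
  have a1 : f g * rename (τ g) y ∣ D * y := (hy _ _).2 fun h => by
    rw [← mul_inv_cancel_left g h, (co g _).dvd_iff_dvd_right]
    exact mul_dvd_mul_left _ (map_dvd _ (yf _))
  have a2 : D * y ∣ f g * rename (τ g) y := by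
    let σ := renameEquiv k (τ g)
    have : σ.symm (D * y) ∣ σ.symm (f g) * y := (hy _ _).2 fun h => by
      rw [← map_dvd_iff σ, map_mul σ, σ.apply_symm_apply, σ.apply_symm_apply]
      exact (mul_dvd_mul_left D (yf _)).trans (co g h).dvd
    rwa [← map_dvd_iff σ, map_mul σ, σ.apply_symm_apply, σ.apply_symm_apply] at this
  obtain ⟨u, hu⟩ := associated_of_dvd_dvd a2 a1
  obtain ⟨r, -, hr⟩ := isUnit_iff_eq_C_of_isReduced.1 u.isUnit
  have := congrArg (algebraMap _ (GF ι k)) hu
  rw [hr, map_mul, map_mul, map_mul, hf, hC, mul_assoc, mul_assoc, mul_right_inj' D1] at this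
  refine ⟨r, ?_⟩
  rw [sig_algebraMap, div_mul_eq_mul_div, mul_comm, ← this, mul_div_cancel_left₀ _ y1]

end Descx

open Descx in
theorem desc {k ι m H : Type*} [Field k] [Fintype m] [DecidableEq m] [Nonempty m] [Group H]
    [Finite H] (τ : H →* Equiv.Perm ι) (A : H → Matrix m m (GF ι k)) (h1 : A 1 = 1)
    (hA : ∀ g h, A (g * h) = A g * (A h).map (sig k (τ g)))
    (hk : ∀ (g : H) (X : Matrix m m k), ∃ Y, A g * cm ι X = cm ι Y * A g) :
    ∃ ρ : H →* Matrix m m k, ∀ g, τ g = 1 → ∀ X, A g = cm ι X → ρ g = X := by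
  choose l s h0 hs e using fun g => scal ((hA g g⁻¹).symm.trans (by rw [mul_inv_cancel, h1])) (hk g)
  have sm : ∀ (g : H) (c : GF ι k) (X : Matrix m m (GF ι k)),
      (c • X).map (sig k (τ g)) = sig k (τ g) c • X.map (sig k (τ g)) := fun g c X => by
    ext i j; simp
  obtain ⟨y, y0, hy⟩ := cob τ l h0 fun g h => by
    obtain ⟨i, j, hij⟩ := hs (g * h)
    have := hA g h
    rw [e (g * h), e g, e h, sm, cm_map_sig, smul_mul_smul_comm, ← cm_mul] at this
    have h2 := congrFun (congrFun this i) j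
    simp only [Matrix.smul_apply, cm_apply, smul_eq_mul] at h2
    have h3 : algebraMap k (GF ι k) (s (g * h) i j) ≠ 0 := (map_ne_zero _).2 hij
    exact ⟨(s g * s h) i j / s (g * h) i j, by rw [map_div₀, div_mul_eq_mul_div, eq_div_iff h3, h2, mul_comm]⟩
  choose r hr using hy
  have key : ∀ g, cm ι (r g • s g) = (sig k (τ g) y / y) • A g := fun g => by
    rw [e g, smul_smul, hr]
    ext i j
    simp [cm_apply]
  have one : ∀ g, τ g = 1 → cm ι (r g • s g) = A g := fun g hg => by
    rw [key, hg, sig_one, div_self y0, one_smul]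
  refine ⟨⟨⟨fun g => r g • s g, cm_injective (ι := ι) (by rw [one 1 (map_one τ), h1, cm_one])⟩,
    fun g h => cm_injective (ι := ι) ?_⟩, fun g hg X hX => cm_injective ((one g hg).trans hX)⟩
  have : sig k (τ g) y ≠ 0 := (map_ne_zero _).2 y0
  rw [cm_mul, ← cm_map_sig (τ g) (r h • s h), key, key, key, sm, smul_mul_smul_comm, hA, map_mul, sig_mul,
    map_div₀]
  congr 1
  field_simp

end Cfsg.Agent.DGN
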