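import Cfsg.Agent.DGN.Defs
import Mathlib.FieldTheory.IntermediateField.Adjoin.Basic
import Mathlib.FieldTheory.IsAlgClosed.Basic

set_option autoImplicit false

namespace Cfsg.Agent.DGN

namespace Tw

variable {k ι n : Type*} [Field k] {p : ℕ} [Fact p.Prime] [CharP k p]

omit [Fact p.Prime] in
theorem charP : CharP (GF ι k) p := charP_of_injective_algebraMap (algebraMap k (GF ι k)).injective p

theorem alg_C (c : k) : algebraMap (MvPolynomial ι k) (GF ι k) (MvPolynomial.C c) = algebraMap k _ c :=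
  (IsScalarTower.algebraMap_apply k (MvPolynomial ι k) (GF ι k) c).symm

/-- the substitution `t_i ↦ t_i u_i` -/
theorem exists_tau {R : Type*} [CommRing R] [Nontrivial R] [Algebra (GF ι k) R] {u : ι → R} {s : ℕ}
    (hu : ∀ i, u i ^ p ^ s = 1) : ∃ τ : GF ι k →+* R,
      (∀ c, τ (algebraMap k _ c) = algebraMap _ _ (algebraMap k (GF ι k) c)) ∧ (∀ i, τ (tv k i) = tv k i • u i) ∧
      ∀ x, τ (x ^ p ^ s) = algebraMap _ _ (x ^ p ^ s) := by
  have := charP (k := k) (ι := ι) (p := p)
  have : CharP R p := charP_of_injective_algebraMap (algebraMap (GF ι k) R).injective p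
  let φ : MvPolynomial ι k →+* R :=
    MvPolynomial.eval₂Hom ((algebraMap (GF ι k) R).comp (algebraMap k _)) fun i => tv k i • u i
  have h1 : (iterateFrobenius R p s).comp φ =
      ((iterateFrobenius R p s).comp (algebraMap (GF ι k) R)).comp (algebraMap (MvPolynomial ι k) _) :=
    MvPolynomial.ringHom_ext (fun c => by simp [φ, alg_C]) fun i => by
      simp only [φ, RingHom.comp_apply, MvPolynomial.eval₂Hom_X', iterateFrobenius_def]
      rw [smul_pow, hu, ← map_pow, Algebra.algebraMap_eq_smul_one, tv]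
  have h2 : ∀ y : nonZeroDivisors (MvPolynomial ι k), IsUnit (φ y) := fun y =>
    (isUnit_pow_iff (pow_pos (Fact.out : p.Prime).pos s).ne').1 (by
      rw [show φ y ^ p ^ s = _ from RingHom.congr_fun h1 y]
      exact (IsLocalization.map_units (GF ι k) y).map ((iterateFrobenius R p s).comp (algebraMap (GF ι k) R)))
  refine ⟨IsLocalization.lift h2, fun c => ?_, fun i => ?_, fun x => ?_⟩
  · rw [← alg_C, IsLocalization.lift_eq, alg_C]; simp [φ]
  · rw [tv, IsLocalization.lift_eq]; simp [φ, tv]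
  · rw [map_pow, map_pow]
    exact RingHom.congr_fun (IsLocalization.ringHom_ext (nonZeroDivisors (MvPolynomial ι k))
      (j := (iterateFrobenius R p s).comp (IsLocalization.lift h2))
      (k := (iterateFrobenius R p s).comp (algebraMap (GF ι k) R))
      (by rw [RingHom.comp_assoc, IsLocalization.lift_comp, h1])) x

/-- no additive surjection `F → F × F` that is linear over the `q`-th powers -/
theorem not_surj [IsAlgClosed k] [Finite ι] (s : ℕ) (L : GF ι k →+ GF ι k × GF ι k)
    (h : ∀ y x, L (y ^ p ^ s * x) = y ^ p ^ s • L x) : ¬ Function.Surjective L := fun hs => by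
  have := charP (k := k) (ι := ι) (p := p)
  have hq := pow_pos (Fact.out : p.Prime).pos s
  let K := (iterateFrobenius (GF ι k) p s).fieldRange
  let S := IntermediateField.adjoin K (Set.range (tv k : ι → GF ι k))
  have hK : ∀ x : GF ι k, x ^ p ^ s ∈ K := fun x => ⟨x, rfl⟩
  have : FiniteDimensional K S := IntermediateField.finiteDimensional_adjoin fun x _ =>
    IsIntegral.of_pow hq (isIntegral_algebraMap (x := (⟨_, hK x⟩ : K)))
  have h1 : ∀ r : MvPolynomial ι k, algebraMap _ (GF ι k) r ∈ S := fun r => by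
    induction r using MvPolynomial.induction_on with
    | C c =>
      obtain ⟨d, rfl⟩ := IsAlgClosed.exists_pow_nat_eq c hq
      rw [alg_C, map_pow]
      exact S.algebraMap_mem ⟨_, hK _⟩
    | add a b ha hb => rw [map_add]; exact add_mem ha hb
    | mul_X a i ha => rw [map_mul]; exact mul_mem ha (IntermediateField.subset_adjoin _ _ ⟨i, rfl⟩)
  have h2 : S = ⊤ := eq_top_iff.2 fun x _ => by
    obtain ⟨a, b, -, rfl⟩ := IsFractionRing.div_surjective (A := MvPolynomial ι k) x
    exact div_mem (h1 a) (h1 b)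
  rw [h2] at this
  have : FiniteDimensional K (GF ι k) := IntermediateField.topEquiv.toLinearEquiv.finiteDimensional
  let L' : GF ι k →ₗ[K] GF ι k × GF ι k :=
    { toFun := L
      map_add' := L.map_add
      map_smul' := fun ⟨_, y, e⟩ x => by subst e; exact h y x }
  have h3 := L'.finrank_le_finrank_of_surjective hs
  rw [Module.finrank_prod] at h3
  have := Module.finrank_pos (R := K) (M := GF ι k)
  omega

variable [Fintype n] [DecidableEq n]

/-- the twisted copy of a matrix -/
noncomputable def T (τ : GF ι k →+* Matrix n n (GF ι k)) : Matrix n n (GF ι k) →+ Matrix n n (GF ι k) :=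
  AddMonoidHom.mk' (fun A => ∑ i, ∑ j, cm ι (Matrix.single i j 1) * τ (A i j)) fun A B => by
    simp only [Matrix.add_apply, map_add, mul_add, Finset.sum_add_distrib]

theorem T_apply (τ : GF ι k →+* Matrix n n (GF ι k)) (A : Matrix n n (GF ι k)) :
    T τ A = ∑ i, ∑ j, cm ι (Matrix.single i j 1) * τ (A i j) := rfl

theorem T_smul (τ : GF ι k →+* Matrix n n (GF ι k)) (x : GF ι k) (A : Matrix n n (GF ι k)) :
    T τ (x • A) = T τ A * τ x := by
  simp only [T_apply, Finset.sum_mul, Matrix.smul_apply, smul_eq_mul, mul_comm x, map_mul, mul_assoc]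

theorem eq_sum (A : Matrix n n (GF ι k)) : A = ∑ i, ∑ j, A i j • cm ι (Matrix.single i j (1 : k)) := by
  conv_lhs => rw [Matrix.matrix_eq_sum_single A]
  simp only [cm, Matrix.map_single, map_one, Matrix.smul_single, smul_eq_mul, mul_one]

/-- `τ` is the substitution for `u`; its values commute with the constant matrices that commute with all `a i` -/
structure Ta (a u : ι → Matrix n n k) (q : ℕ) (τ : GF ι k →+* Matrix n n (GF ι k)) : Prop where
  c : ∀ c, τ (algebraMap k _ c) = algebraMap k (GF ι k) c • 1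
  t : ∀ i, τ (tv k i) = tv k i • cm ι (u i)
  q : ∀ x, τ (x ^ q) = x ^ q • 1
  com : ∀ C, (∀ i, C * a i = a i * C) → ∀ x, τ x * cm ι C = cm ι C * τ x

open scoped IsMulCommutative in
theorem exists_ta [Nonempty n] {a : ι → Matrix n n k} {s : ℕ} (hc : ∀ i j, a i * a j = a j * a i)
    (hq : ∀ i, a i ^ p ^ s = 1) (m : ℕ) : ∃ τ, Ta a (fun i => a i ^ m) (p ^ s) τ := by
  let R := Algebra.adjoin (GF ι k) (Set.range fun i => cm ι (a i))
  have : IsMulCommutative R := Algebra.isMulCommutative_adjoin _ (by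
    rintro _ ⟨i, rfl⟩ _ ⟨j, rfl⟩
    rw [← cm_mul, hc, cm_mul])
  obtain ⟨τ, h1, h2, h3⟩ := exists_tau (k := k) (R := R) (p := p) (s := s)
    (u := fun i => ⟨cm ι (a i), Algebra.subset_adjoin ⟨i, rfl⟩⟩ ^ m) fun i => Subtype.ext (by
      rw [← pow_mul, mul_comm, pow_mul]
      change (cm ι (a i) ^ p ^ s) ^ m = 1
      rw [cm_eq, ← map_pow, hq, map_one, one_pow])
  refine ⟨R.val.toRingHom.comp τ, fun c => ?_, fun i => ?_, fun x => ?_, fun C hC x => ?_⟩
  · exact (congrArg Subtype.val (h1 c)).trans (Algebra.algebraMap_eq_smul_one _)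
  · exact (congrArg Subtype.val (h2 i)).trans (by rw [cm_eq (a i ^ m), map_pow]; rfl)
  · exact (congrArg Subtype.val (h3 x)).trans (Algebra.algebraMap_eq_smul_one _)
  · exact (Algebra.commute_of_mem_adjoin_of_forall_mem_commute (τ x).2 (by
      rintro _ ⟨i, rfl⟩
      exact (cm_mul _ _).symm.trans ((congrArg _ (hC i)).trans (cm_mul _ _)))).symm

variable {a u b : ι → Matrix n n k} {q : ℕ} {τ σ : GF ι k →+* Matrix n n (GF ι k)}

theorem Ta.cm (h : Ta a u q τ) (C : Matrix n n k) : T τ (cm ι C) = cm ι C := by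
  conv_rhs => rw [eq_sum (DGN.cm ι C)]
  simp only [T_apply, cm_apply, h.c, mul_smul_comm, mul_one]

theorem Ta.left (h : Ta a u q τ) (C : Matrix n n k) (A : Matrix n n (GF ι k)) :
    T τ (DGN.cm ι C * A) = DGN.cm ι C * T τ A := by
  conv_lhs => rw [eq_sum A]
  simp only [Finset.mul_sum, mul_smul_comm, map_sum, T_smul, ← cm_mul, h.cm]
  simp only [T_apply, Finset.mul_sum, cm_mul, mul_assoc]

theorem Ta.right (h : Ta a u q τ) {C : Matrix n n k} (hC : ∀ i, C * a i = a i * C) (A : Matrix n n (GF ι k)) :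
    T τ (A * DGN.cm ι C) = T τ A * DGN.cm ι C := by
  conv_lhs => rw [eq_sum A]
  simp only [Finset.sum_mul, smul_mul_assoc, map_sum, T_smul, ← cm_mul, h.cm]
  simp only [T_apply, Finset.sum_mul, cm_mul, mul_assoc, h.com C hC]

theorem Ta.inv (h : Ta a a q τ) (h' : Ta a b q σ) (hba : ∀ i, b i * a i = 1) (hb : ∀ i j, b i * a j = a j * b i)
    (A : Matrix n n (GF ι k)) : T τ (T σ A) = A := by
  have h1 : ∀ (r : MvPolynomial ι k) A, T τ (A * σ (algebraMap _ _ r)) = algebraMap _ (GF ι k) r • T τ A := fun r => by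
    induction r using MvPolynomial.induction_on with
    | C c => exact fun A => by rw [alg_C, h'.c, mul_smul_comm, mul_one, T_smul, h.c, mul_smul_comm, mul_one]
    | add r s hr hs => exact fun A => by rw [map_add, map_add, mul_add, map_add, hr, hs, add_smul]
    | mul_X r i hr =>
      intro A
      rw [map_mul (algebraMap (MvPolynomial ι k) (GF ι k)), map_mul σ, ← mul_assoc, ← tv, h'.t, mul_smul_comm, T_smul, h.right (hb i), h.t, hr, mul_smul_comm,
        mul_assoc, ← cm_mul, hba, cm_one, mul_one, mul_comm, mul_smul]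
  have h2 : ∀ x A, T τ (A * σ x) = x • T τ A := fun x A => by
    obtain ⟨r, s, hs, rfl⟩ := IsFractionRing.div_surjective (A := MvPolynomial ι k) x
    have h3 := IsFractionRing.to_map_ne_zero_of_mem_nonZeroDivisors (K := GF ι k) hs
    rw [div_eq_inv_mul, mul_smul, eq_inv_smul_iff₀ h3, ← h1, ← h1, mul_assoc, ← map_mul, mul_right_comm,
      inv_mul_cancel₀ h3, one_mul]
  conv_rhs => rw [eq_sum A]
  rw [T_apply σ]
  simp only [map_sum, h2, h.cm]

variable [Fintype ι]

theorem com_eq (a : ι → Matrix n n k) (B : Matrix n n (GF ι k)) :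
    Th a * B - B * Th a = ∑ i, tv k i • (DGN.cm ι (a i) * B - B * DGN.cm ι (a i)) := by
  simp only [Th, Finset.sum_mul, Finset.mul_sum, ← Finset.sum_sub_distrib, smul_mul_assoc, mul_smul_comm,
    ← smul_sub, sub_mul, mul_sub, one_mul, mul_one, sub_sub_sub_cancel_right]

theorem Ta.com_ths (h : Ta a b q σ) (hab : ∀ i, a i * b i = 1) (hc : ∀ i j, a i * a j = a j * a i)
    (B : Matrix n n (GF ι k)) : T σ (Th a * B - B * Th a) = ths a b (T σ B) := by
  simp only [com_eq, map_sum, T_smul, map_sub, h.left, h.right (hc _), h.t, ths, mul_smul_comm, sub_mul, mul_assoc,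
    ← cm_mul, hab, cm_one, mul_one]

theorem Ta.ths_com (h : Ta a a q τ) (hba : ∀ i, b i * a i = 1) (hb : ∀ i j, b i * a j = a j * b i)
    (B : Matrix n n (GF ι k)) : T τ (ths a b B) = Th a * T τ B - T τ B * Th a := by
  simp only [com_eq, map_sum, T_smul, map_sub, h.left, h.right (hb _), h.t, ths, mul_smul_comm, sub_mul, mul_assoc,
    ← cm_mul, hba, cm_one, mul_one]

end Tw

open Tw in
theorem tw {k ι n : Type*} [Field k] [IsAlgClosed k] {p : ℕ} [Fact p.Prime] [CharP k p]
    [Fintype ι] [Fintype n] [DecidableEq n] {a b : ι → Matrix n n k} {ε : Matrix n n k} {s : ℕ}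
    (hab : ∀ i, a i * b i = 1) (hc : ∀ i j, a i * a j = a j * a i) (hq : ∀ i, a i ^ p ^ s = 1)
    (hε : ∀ i, ε * a i = a i * ε)
    (h : ∀ B, ths a b B = 0 → ∃ (x : GF ι k) (B' : Matrix n n (GF ι k)),
      cm ι ε * B * cm ι ε = x • cm ι ε + ths a b B')
    {e₁ e₂ : Matrix n n (GF ι k)} (he : Orth (Th a) (cm ι ε) e₁ e₂) :
    e₁.trace = 0 ∨ e₂.trace = 0 := by
  rcases isEmpty_or_nonempty n with hn | hn
  · exact Or.inl (by simp [Matrix.trace])
  by_contra! c
  obtain ⟨m, hm⟩ := Nat.exists_eq_succ_of_ne_zero (pow_pos (Fact.out : p.Prime).pos s).ne'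
  have hba : ∀ i, b i * a i = 1 := fun i => mul_eq_one_comm.1 (hab i)
  obtain rfl : b = fun i => a i ^ m := funext fun i => by
    rw [← mul_one (b i), ← hq i, hm, pow_succ', ← mul_assoc, hba, one_mul]
  have hb : ∀ i j, a i ^ m * a j = a j * a i ^ m := fun i j => Commute.pow_left (hc i j) m
  obtain ⟨τ, h1⟩ := exists_ta hc hq 1
  simp only [pow_one] at h1
  obtain ⟨σ, h2⟩ := exists_ta hc hq m
  refine not_surj (p := p) s (AddMonoidHom.mk' (fun x => ((e₁ * τ x).trace, (e₂ * τ x).trace)) fun x y => by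
    simp only [map_add, mul_add, Matrix.trace_add, Prod.mk_add_mk]) (fun y x => ?_) fun ⟨y₁, y₂⟩ => ?_
  · simp only [AddMonoidHom.mk'_apply, map_mul, h1.q, smul_mul_assoc, one_mul, mul_smul_comm, Matrix.trace_smul,
      Prod.smul_mk]
  obtain ⟨x, B, e⟩ := h (T σ ((y₁ / e₁.trace) • e₁ + (y₂ / e₂.trace) • e₂)) (by
    rw [← h2.com_ths hab hc, mul_add, add_mul, mul_smul_comm, mul_smul_comm, smul_mul_assoc, smul_mul_assoc, he.c1,
      he.c2, sub_self, map_zero])
  have e1 := congrArg (T τ) e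
  rw [h1.right hε, h1.left, h1.inv h2 hba hb, map_add, T_smul, h1.cm, h1.ths_com hba hb] at e1
  have k : ∀ f : Matrix n n (GF ι k), f * cm ι ε = f → cm ι ε * f = f → f * Th a = Th a * f →
      (((y₁ / e₁.trace) • e₁ + (y₂ / e₂.trace) • e₂) * f).trace = (f * τ x).trace := fun f f1 f2 f3 => by
    generalize (y₁ / e₁.trace) • e₁ + (y₂ / e₂.trace) • e₂ = A at e1 ⊢
    have := congrArg (fun X => (f * X).trace) e1
    simp only [mul_add f, mul_sub, ← mul_assoc, f1, f3, Matrix.trace_add, Matrix.trace_sub] at this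
    rw [Matrix.trace_mul_comm (f * T τ B), ← mul_assoc, sub_self, add_zero, Matrix.trace_mul_comm, ← mul_assoc, f2,
      Matrix.trace_mul_comm] at this
    exact this
  refine ⟨x, Prod.ext ((k _ he.r1 he.l1 he.c1).symm.trans ?_) ((k _ he.r2 he.l2 he.c2).symm.trans ?_)⟩
  · rw [add_mul, smul_mul_assoc, smul_mul_assoc, he.i1, he.o2, smul_zero, add_zero, Matrix.trace_smul, smul_eq_mul,
      div_mul_cancel₀ _ c.1]
  · rw [add_mul, smul_mul_assoc, smul_mul_assoc, he.i2, he.o1, smul_zero, zero_add, Matrix.trace_smul, smul_eq_mul,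
      div_mul_cancel₀ _ c.2]

end Cfsg.Agent.DGN
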