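import Cfsg.Agent.DGN.CoreA
import Cfsg.Agent.DGN.CoreB
import Cfsg.Agent.DGN.Tw
import Cfsg.Agent.DGN.Desc

/-!
The modular Glauberman correspondent of a representation of `Γ` extends to the normalizer of the
abelian `p`-subgroup.
-/

set_option autoImplicit false

namespace Cfsg.Agent.DGN

open Subgroup Matrix

theorem isNilpotent_Th {k ι n : Type*} [Field k] {p : ℕ} [Fact p.Prime] [CharP k p] [Fintype ι]
    [Fintype n] [DecidableEq n] [Nonempty n] {a : ι → Matrix n n k} {s : ℕ}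
    (hc : ∀ i j, a i * a j = a j * a i) (hq : ∀ i, a i ^ p ^ s = 1) : IsNilpotent (Th a) := by
  have : CharP (GF ι k) p := charP_of_injective_algebraMap (algebraMap k (GF ι k)).injective p
  refine Commute.isNilpotent_sum (fun i _ => IsNilpotent.smul ⟨p ^ s, ?_⟩ _) fun i j _ _ => ?_
  · rw [sub_pow_char_pow_of_commute p s (Commute.one_right _), one_pow, cm_eq, ← map_pow, hq,
      map_one, sub_self]
  · have : Commute (cm ι (a i)) (cm ι (a j)) :=
      (cm_mul _ _).symm.trans ((congrArg _ (hc i j)).trans (cm_mul _ _))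
    exact (((this.sub_right (Commute.one_right _)).sub_left (Commute.one_left _)).smul_left
      _).smul_right _

/-- Conjugation on `P`. -/
def conjP {Γ : Type*} [Group Γ] (P : Subgroup Γ) : normalizer (P : Set Γ) →* Equiv.Perm P :=
  (MulAut.toPerm P).comp P.normalizerMonoidHom

theorem conjP_apply {Γ : Type*} [Group Γ] (P : Subgroup Γ) (h : normalizer (P : Set Γ)) (g : P) :
    (conjP P h g : Γ) = h * g * (h : Γ)⁻¹ := rfl

/-- The semilinear action. -/
noncomputable def semi {k ι n : Type*} [Field k] [Fintype n] (e : Equiv.Perm ι)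
    (A : Matrix n n k) : (n → GF ι k) →+ (n → GF ι k) where
  toFun v := cm ι A *ᵥ (sig k e ∘ v)
  map_zero' := by rw [show (sig k e ∘ (0 : n → GF ι k)) = 0 from funext fun _ => map_zero _,
    mulVec_zero]
  map_add' v w := by
    rw [← mulVec_add]
    exact congrArg _ (funext fun _ => map_add _ _ _)

theorem semi_mulVec {k ι n : Type*} [Field k] [Fintype n] (e : Equiv.Perm ι) (A : Matrix n n k)
    (B : Matrix n n (GF ι k)) (v : n → GF ι k) :
    semi e A (B *ᵥ v) = (cm ι A * B.map (sig k e)) *ᵥ (sig k e ∘ v) := by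
  rw [← mulVec_mulVec]
  exact congrArg (cm ι A *ᵥ ·)
    (funext fun i => RingHom.map_mulVec (sig k e : GF ι k →+* GF ι k) B v i)

theorem semi_apply {k ι n : Type*} [Field k] [Fintype n] (e : Equiv.Perm ι) (A : Matrix n n k)
    (v : n → GF ι k) : semi e A v = cm ι A *ᵥ (sig k e ∘ v) := rfl

theorem semi_smul {k ι n : Type*} [Field k] [Fintype n] (e : Equiv.Perm ι) (A : Matrix n n k)
    (y : GF ι k) (v : n → GF ι k) : semi e A (y • v) = sig k e y • semi e A v := by
  change _ *ᵥ _ = _ • (_ *ᵥ _)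
  rw [← mulVec_smul]
  exact congrArg _ (funext fun _ => map_mul _ _ _)

theorem Th_map_sig {k ι n : Type*} [Field k] [Fintype ι] [Fintype n] [DecidableEq n]
    (e : Equiv.Perm ι) (a : ι → Matrix n n k) :
    (Th a).map (sig k e) = ∑ i, tv k (e i) • (cm ι (a i) - 1) := by
  ext i j
  simp only [Th, map_apply, Matrix.sum_apply, map_sum, Matrix.smul_apply, smul_eq_mul, map_mul,
    sig_tv, Matrix.sub_apply, map_sub, cm_apply, AlgEquiv.commutes, one_apply, apply_ite (sig k e), map_one,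
    map_zero]

theorem conj_mem_inf {Γ : Type*} [Group Γ] {N P : Subgroup Γ} [hNn : N.Normal] {h c : Γ}
    (hh : h ∈ normalizer (P : Set Γ)) (hc : c ∈ N ⊓ centralizer (P : Set Γ)) :
    h * c * h⁻¹ ∈ N ⊓ centralizer (P : Set Γ) :=
  ⟨hNn.conj_mem _ hc.1 _, mem_centralizer_iff.mpr fun g hg => by
    have := mem_centralizer_iff.mp hc.2 _ ((mem_normalizer_iff''.mp hh g).mp hg)
    calc g * (h * c * h⁻¹) = h * (h⁻¹ * g * h * c) * h⁻¹ := by group
      _ = h * c * h⁻¹ * g := by rw [this]; group⟩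

theorem exists_units {k Γ n m : Type*} [Field k] [Group Γ] [Fintype n] [DecidableEq n] [Fintype m]
    [DecidableEq m] (o : m) (P C : Subgroup Γ) [Fintype C] (hC : (Fintype.card C : k) ≠ 0)
    (hCP : C ≤ centralizer (P : Set Γ))
    (hconj : ∀ h ∈ normalizer (P : Set Γ), ∀ c ∈ C, h * c * h⁻¹ ∈ C) (ρ : Γ →* Matrix n n k)
    (π : C →* Matrix m m k) (hπ : Submodule.span k (Set.range π) = ⊤)
    (hinv : ∀ h ∈ normalizer (P : Set Γ), ∀ c c' : C,
      (c' : Γ) = h * c * h⁻¹ → (π c').trace = (π c).trace)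
    (hm : ∑ c, (π c⁻¹).trace * (ρ c).trace ≠ 0) :
    ∃ E : m → m → Matrix n n k, (∀ a b c d, E a b * E c d = if b = c then E a d else 0) ∧
      (∀ a b, ∀ g ∈ P, E a b * ρ g = ρ g * E a b) ∧ (E o o).trace ≠ 0 ∧
      (∀ (c : C) a b, E o a * ρ c * E b o = π c a b • E o o) ∧
      ∀ h ∈ normalizer (P : Set Γ), ρ h * ∑ a, E a a = (∑ a, E a a) * ρ h := by
  have : Nonempty m := ⟨o⟩
  have hS := sec_mul (ρ.comp C.subtype) hC hπ
  refine ⟨fun a b => sec π (ρ.comp C.subtype) (single a b 1), fun a b c d => ?_,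
    fun a b g hg => (commute_sec _ _ (fun c => ?_) _).symm,
    trace_sec_single_ne_zero _ hC hπ o hm, fun c a b => ?_, fun h hh => ?_⟩
  · rw [hS]
    split_ifs with h
    · rw [h, single_mul_single_same, mul_one]
    · rw [single_mul_single_of_ne _ _ _ _ h, map_zero]
  · simp only [MonoidHom.comp_apply, coe_subtype, ← map_mul]
    rw [mem_centralizer_iff.mp (hCP c.2) g hg]
  · rw [show ρ c = (ρ.comp C.subtype) c from rfl, sec_mul_rep, hS, single_mul_mul_single,
      ← map_smul, smul_single, one_mul, mul_one, smul_eq_mul, mul_one]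
  · rw [← map_sum, sum_single_one]
    simp only [sec_apply, mul_smul_comm, smul_mul_assoc, Finset.mul_sum, Finset.sum_mul, one_mul,
      MonoidHom.comp_apply, coe_subtype, ← map_mul]
    congr 1
    refine Fintype.sum_bijective (fun c : C => (⟨_, hconj h hh c c.2⟩ : C))
      (Finite.injective_iff_bijective.mp fun c c' e => Subtype.ext (by
        simpa using congrArg Subtype.val e)) _ _ fun c => ?_
    rw [hinv h hh c⁻¹ (⟨_, hconj h hh c c.2⟩ : C)⁻¹ (by simp [mul_assoc])]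
    simp

theorem semi_Th {k Γ n : Type*} [Field k] [Group Γ] [Fintype n] [DecidableEq n] (P : Subgroup Γ)
    [Fintype P] (ρ : Γ →* Matrix n n k) (h : normalizer (P : Set Γ)) (v : n → GF P k) :
    semi (conjP P h) (ρ h) (Th (fun g : P => ρ g) *ᵥ v) =
      Th (fun g : P => ρ g) *ᵥ semi (conjP P h) (ρ h) v := by
  rw [semi_mulVec, semi_apply, mulVec_mulVec, Th_map_sig, Th, ← Equiv.sum_comp (conjP P h)
    fun g : P => tv k g • (cm P (ρ g) - 1), Finset.mul_sum, Finset.sum_mul]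
  refine congrArg (· *ᵥ _) (Finset.sum_congr rfl fun g _ => ?_)
  rw [mul_smul_comm, smul_mul_assoc, mul_sub, sub_mul, mul_one, one_mul, ← cm_mul, ← cm_mul,
    ← map_mul, ← map_mul, conjP_apply, inv_mul_cancel_right]

theorem semi_mul {k ι n : Type*} [Field k] [Fintype n] [DecidableEq n] (e f : Equiv.Perm ι)
    (A B : Matrix n n k) (v : n → GF ι k) : semi (e * f) (A * B) v = semi e A (semi f B v) := by
  rw [semi_apply f, semi_mulVec, cm_map_sig, ← cm_mul, semi_apply]
  exact congrArg (cm ι (A * B) *ᵥ ·) (funext fun i => sig_mul _ _ _)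

theorem cm_comm {k ι n : Type*} [Field k] [Fintype n] [DecidableEq n] {A B : Matrix n n k}
    (h : A * B = B * A) : cm ι A * cm ι B = cm ι B * cm ι A := by rw [← cm_mul, h, cm_mul]

theorem cm_mul_Th {k ι n : Type*} [Field k] [Fintype ι] [Fintype n] [DecidableEq n]
    {a : ι → Matrix n n k} {A : Matrix n n k} (h : ∀ i, A * a i = a i * A) :
    cm ι A * Th a = Th a * cm ι A := by
  simp only [Th, Finset.mul_sum, Finset.sum_mul, mul_smul_comm, smul_mul_assoc, mul_sub,
    sub_mul, mul_one, one_mul, cm_comm (h _)]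

theorem trace_cm {k ι n : Type*} [Field k] [Fintype n] (A : Matrix n n k) :
    (cm ι A).trace = algebraMap k _ A.trace := by
  simp only [trace, diag, cm_apply, map_sum]

theorem exists_cocycle {k Γ n m : Type*} [Field k] [IsAlgClosed k] {p : ℕ} [Fact p.Prime]
    [CharP k p] [Group Γ] [Finite Γ] [Fintype n] [DecidableEq n] [Fintype m] [DecidableEq m]
    (N P : Subgroup Γ) [N.Normal] (hN : ¬ p ∣ Nat.card N) (hP : IsPGroup p P)
    (hab : ∀ x ∈ P, ∀ y ∈ P, x * y = y * x) (ρ : Γ →* Matrix n n k)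
    (hρ : Submodule.span k (Set.range fun x : N => ρ x) = ⊤) (o : m) (E : m → m → Matrix n n k)
    (h1 : ∀ a b c d, E a b * E c d = if b = c then E a d else 0)
    (h2 : ∀ a b, ∀ g ∈ P, E a b * ρ g = ρ g * E a b) (h3 : (E o o).trace ≠ 0)
    (h4 : ∀ c ∈ N ⊓ centralizer (P : Set Γ), ∃ x : k, E o o * ρ c * E o o = x • E o o)
    (h5 : ∀ h ∈ normalizer (P : Set Γ), ρ h * ∑ a, E a a = (∑ a, E a a) * ρ h) :
    ∃ A : normalizer (P : Set Γ) → Matrix m m (GF P k),
      (∀ g h, A (g * h) = A g * (A h).map (sig k (conjP P g))) ∧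
      ∀ g (X : Matrix m m k), conjP P g = 1 → (∀ a b, E o a * ρ g * E b o = X a b • E o o) →
        A g = cm P X := by
  have := Fintype.ofFinite P
  have hn : Nonempty n := by
    by_contra h
    rw [not_nonempty_iff] at h
    exact h3 (by simp [trace])
  obtain ⟨s, hs⟩ := IsPGroup.iff_card.mp hP
  have hq : ∀ g : P, ρ g ^ p ^ s = 1 := fun g => by
    rw [← map_pow, ← hs, ← coe_pow, pow_card_eq_one', coe_one, map_one]
  have hc : ∀ g h : P, ρ g * ρ h = ρ h * ρ g := fun g h => by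
    rw [← map_mul, ← map_mul, hab _ g.2 _ h.2]
  obtain ⟨A, hA1, hA2⟩ := coc (isNilpotent_Th (a := fun g : P => ρ g) hc hq) o
    (fun a b => cm P (E a b))
    (fun a b c d => by
      rw [← cm_mul, h1]
      split_ifs
      · rfl
      · rw [cm_eq, map_zero])
    (fun a b => cm_mul_Th fun g => h2 a b _ g.2)
    (by rwa [trace_cm, _root_.map_ne_zero])
    (fun e₁ e₂ => tw (a := fun g : P => ρ g) (b := fun g : P => ρ (g : Γ)⁻¹)
      (fun g => by rw [← map_mul, mul_inv_cancel, map_one]) hc hq (fun g => h2 o o _ g.2)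
      (ker_ths N P hN hP hab ρ hρ (h2 o o) h4))
    (fun h : normalizer (P : Set Γ) => semi (conjP P h) (ρ h)) (fun h => sig k (conjP P h))
    (fun h => semi_smul _ _)
    (fun g h v => by rw [← semi_mul, ← map_mul, ← map_mul]; rfl) (semi_Th P ρ)
    (fun h v => by
      rw [← cm_sum, semi_mulVec, cm_map_sig, semi_apply, mulVec_mulVec, cm_comm (h5 _ h.2)])
  refine ⟨A, hA1, fun g X hg hX => hA2 g _ fun a b v => ?_⟩
  rw [semi_mulVec, cm_map_sig, mulVec_mulVec, ← cm_mul, ← cm_mul, ← mul_assoc, hX, cm_smul,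
    smul_mulVec, hg, show (sig k (1 : Equiv.Perm P) ∘ v) = v from funext fun i => sig_one _,
    cm_apply]

theorem core {k Γ n m : Type*} [Field k] [IsAlgClosed k] {p : ℕ} [Fact p.Prime] [CharP k p]
    [Group Γ] [Finite Γ] [Fintype n] [DecidableEq n] [Fintype m] [DecidableEq m] [Nonempty m]
    (N P : Subgroup Γ) [N.Normal] (hN : ¬ p ∣ Nat.card N) (hP : IsPGroup p P)
    (hab : ∀ x ∈ P, ∀ y ∈ P, x * y = y * x) (ρ : Γ →* Matrix n n k)
    (hρ : Submodule.span k (Set.range fun x : N => ρ x) = ⊤)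
    [Fintype (N ⊓ centralizer (P : Set Γ) : Subgroup Γ)]
    (π : (N ⊓ centralizer (P : Set Γ) : Subgroup Γ) →* Matrix m m k)
    (hπ : Submodule.span k (Set.range π) = ⊤)
    (hinv : ∀ h ∈ normalizer (P : Set Γ), ∀ c c' : (N ⊓ centralizer (P : Set Γ) : Subgroup Γ),
      (c' : Γ) = h * c * h⁻¹ → (π c').trace = (π c).trace)
    (hm : ∑ c, (π c⁻¹).trace * (ρ c).trace ≠ 0) :
    ∃ ρ' : normalizer (P : Set Γ) →* Matrix m m k,
      ∀ (c : (N ⊓ centralizer (P : Set Γ) : Subgroup Γ)) (h : normalizer (P : Set Γ)),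
        (h : Γ) = c → ρ' h = π c := by
  obtain ⟨o⟩ := ‹Nonempty m›
  obtain ⟨E, h1, h2, h3, h4, h5⟩ := exists_units o P _ (by
    rw [Ne, CharP.cast_eq_zero_iff k p, ← Nat.card_eq_fintype_card]
    exact fun h => hN (h.trans (card_dvd_of_le inf_le_left))) inf_le_right
    (fun _ hh _ hc => conj_mem_inf hh hc) ρ π hπ hinv hm
  obtain ⟨A, hA1, hA2⟩ := exists_cocycle N P hN hP hab ρ hρ o E h1 h2 h3
    (fun c hc => ⟨_, h4 ⟨c, hc⟩ o o⟩) h5
  have hτ : ∀ (c : (N ⊓ centralizer (P : Set Γ) : Subgroup Γ)) (h : normalizer (P : Set Γ)),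
      (h : Γ) = c → conjP P h = 1 := fun c h e =>
    Equiv.ext fun g => Subtype.ext (by
      rw [conjP_apply, e, ← mem_centralizer_iff.mp c.2.2 g g.2, mul_inv_cancel_right]; rfl)
  have hAc : ∀ (c : (N ⊓ centralizer (P : Set Γ) : Subgroup Γ)) (h : normalizer (P : Set Γ)),
      (h : Γ) = c → A h = cm P (π c) :=
    fun c h e => hA2 h _ (hτ c h e) fun a b => by rw [e, h4]
  obtain ⟨ρ', hρ'⟩ := desc (conjP P) A (by rw [hAc 1 1 rfl, map_one, cm_one]) hA1 fun g X => by
    have hX : X ∈ Submodule.span k (Set.range π) := hπ ▸ Submodule.mem_top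
    induction hX using Submodule.span_induction with
    | mem _ hx =>
      obtain ⟨c, rfl⟩ := hx
      have hcH : ∀ c : (N ⊓ centralizer (P : Set Γ) : Subgroup Γ),
          (c : Γ) ∈ normalizer (P : Set Γ) := fun c => centralizer_le_normalizer _ c.2.2
      obtain ⟨c', hc'⟩ : ∃ c' : (N ⊓ centralizer (P : Set Γ) : Subgroup Γ),
        (c' : Γ) = g * c * (g : Γ)⁻¹ := ⟨⟨_, conj_mem_inf g.2 c.2⟩, rfl⟩
      refine ⟨π c', ?_⟩
      have e1 := hA1 g ⟨c, hcH c⟩
      have e2 := hA1 ⟨c', hcH c'⟩ g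
      rw [hAc c ⟨c, hcH c⟩ rfl, cm_map_sig] at e1
      rw [hAc c' ⟨c', hcH c'⟩ rfl, hτ c' ⟨c', hcH c'⟩ rfl,
        show (A g).map (sig k (1 : Equiv.Perm P)) = A g from Matrix.ext fun i j => sig_one _] at e2
      rw [← e1, ← e2]
      exact congrArg A (Subtype.ext (by simp [hc']))
    | zero => exact ⟨0, by rw [cm_eq, map_zero, mul_zero, zero_mul]⟩
    | add x y _ _ hx hy =>
      obtain ⟨x', hx⟩ := hx
      obtain ⟨y', hy⟩ := hy
      simp only [cm_eq] at hx hy ⊢
      exact ⟨x' + y', by rw [map_add, map_add, mul_add, add_mul, hx, hy]⟩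
    | smul r x _ hx =>
      obtain ⟨x', hx⟩ := hx
      exact ⟨r • x', by rw [cm_smul, cm_smul, mul_smul_comm, smul_mul_assoc, hx]⟩
  exact ⟨ρ', fun c h e => hρ' h (hτ c h e) _ (hAc c h e)⟩

end Cfsg.Agent.DGN
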