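import Cfsg.Agent.DGN.Defs

set_option autoImplicit false

namespace Cfsg.Agent.DGN

open Matrix

theorem jor_block {F n : Type*} [Field F] [Fintype n] [DecidableEq n] {Θ ε : Matrix n n F}
    (hΘ : IsNilpotent Θ) (hε : ε * ε = ε) (hc : ε * Θ = Θ * ε) {t : ℕ} (h0 : Θ ^ (t + 1) * ε = 0)
    (h1 : Θ ^ t * ε ≠ 0) : ∃ (e : Matrix n n F) (v : n → F), e * e = e ∧ e * Θ = Θ * e ∧
      ε * e = e ∧ e * ε = e ∧ e.trace = (t + 1 : ℕ) ∧ ε *ᵥ v = v ∧ (Θ ^ t) *ᵥ v ≠ 0 ∧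
      e *ᵥ (Θ ^ t) *ᵥ v = (Θ ^ t) *ᵥ v ∧ ∀ x, Θ *ᵥ x = 0 → ∃ y : F, e *ᵥ x = y • (Θ ^ t) *ᵥ v := by
  have hc' : ∀ j, ε * Θ ^ j = Θ ^ j * ε := fun j => (Commute.pow_right hc j).eq
  obtain ⟨v, hv, k, hk⟩ : ∃ v, ε *ᵥ v = v ∧ ∃ k, ((Θ ^ t) *ᵥ v) k ≠ 0 := by
    by_contra hcon
    push Not at hcon
    refine h1 (ext fun i j => ?_)
    have := hcon (ε *ᵥ Pi.single j 1) (by rw [mulVec_mulVec, hε]) i
    rwa [mulVec_mulVec, mulVec_single_one] at this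
  have hv0 : (Θ ^ (t + 1)) *ᵥ v = 0 := by rw [← hv, mulVec_mulVec, h0, zero_mulVec]
  obtain ⟨l, hl, hl0, hl1⟩ : ∃ l : n → F, l ᵥ* ε = l ∧ l ᵥ* Θ ^ (t + 1) = 0 ∧
      l ⬝ᵥ (Θ ^ t) *ᵥ v = 1 := by
    refine ⟨Pi.single k (((Θ ^ t) *ᵥ v) k)⁻¹ ᵥ* ε, by rw [vecMul_vecMul, hε],
      by rw [vecMul_vecMul, hc', h0, vecMul_zero], ?_⟩
    rw [← dotProduct_mulVec, mulVec_mulVec, hc', ← mulVec_mulVec, hv, single_dotProduct,
      inv_mul_cancel₀ hk]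
  obtain ⟨R, hR⟩ : ∃ R, R = vecMulVec v l := ⟨_, rfl⟩
  have hRx : ∀ x, R *ᵥ x = (l ⬝ᵥ x) • v := fun x => by
    rw [hR, vecMulVec_mulVec, op_smul_eq_smul]
  obtain ⟨α, hα⟩ : ∃ α, α = ∑ j ∈ Finset.range (t + 1), Θ ^ j * R * Θ ^ (t - j) := ⟨_, rfl⟩
  have c1 : Commute Θ α := by
    have := Finset.sum_range_sub (fun j => Θ ^ j * R * Θ ^ (t + 1 - j)) (t + 1)
    rw [hR, Nat.sub_zero, mul_vecMulVec, hv0, zero_vecMulVec, zero_mul, mul_assoc, vecMulVec_mul,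
      hl0, vecMulVec_zero, mul_zero, sub_zero, ← hR, Finset.sum_sub_distrib, sub_eq_zero] at this
    rw [Commute, SemiconjBy, hα, Finset.mul_sum, Finset.sum_mul]
    refine (Finset.sum_congr rfl fun j _ => ?_).trans (this.trans
      (Finset.sum_congr rfl fun j hj => ?_))
    · rw [Nat.add_sub_add_right, pow_succ', mul_assoc, mul_assoc, mul_assoc]
    · rw [Nat.sub_add_comm (Nat.lt_succ_iff.1 (Finset.mem_range.1 hj)), pow_succ, ← mul_assoc]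
  obtain ⟨q, hq, hu⟩ : ∃ q, (∀ X, Commute X Θ → Commute X q) ∧ α *ᵥ v = (1 + q * Θ) *ᵥ v := by
    refine ⟨∑ j ∈ Finset.range t, (l ⬝ᵥ (Θ ^ (t - (j + 1))) *ᵥ v) • Θ ^ j, fun X hX =>
      Commute.sum_right _ _ _ fun j _ => (hX.pow_right j).smul_right _, ?_⟩
    rw [hα, Finset.sum_range_succ', add_mulVec, add_mulVec, add_comm, Finset.sum_mul, sum_mulVec,
      sum_mulVec]
    congr 1
    · rw [pow_zero, one_mul, ← mulVec_mulVec, hRx, Nat.sub_zero, hl1, one_smul, one_mulVec]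
    · refine Finset.sum_congr rfl fun j _ => ?_
      rw [← mulVec_mulVec, ← mulVec_mulVec, hRx, mulVec_smul, smul_mul_assoc, smul_mulVec, ← pow_succ]
  have hqα : α * R = (1 + q * Θ) * R := by rw [hR, mul_vecMulVec, mul_vecMulVec, hu]
  have c2 : ∀ X, Commute X Θ → Commute X (1 + q * Θ) := fun X hX =>
    (Commute.one_right X).add_right ((hq X hX).mul_right hX)
  obtain ⟨W, hW, c3⟩ : ∃ W, W * (1 + q * Θ) = 1 ∧ ∀ X, Commute X Θ → Commute X W := by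
    obtain ⟨U, hU⟩ := ((hq Θ rfl).symm.isNilpotent_mul_left hΘ).isUnit_one_add
    exact ⟨(U⁻¹ : (Matrix n n F)ˣ), hU ▸ U.inv_mul, fun X hX =>
      Commute.units_inv_right (hU ▸ c2 X hX)⟩
  have hαα : α * α = (1 + q * Θ) * α := by
    conv_lhs => enter [2]; rw [hα]
    conv_rhs => rw [hα]
    rw [Finset.mul_sum, Finset.mul_sum]
    refine Finset.sum_congr rfl fun j _ => ?_
    simp only [← mul_assoc]
    rw [← (c1.pow_left j).eq, ← ((c2 Θ rfl).pow_left j).eq, mul_assoc _ α, mul_assoc _ _ R, hqα]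
  have hU1 : W *ᵥ (Θ ^ t) *ᵥ v = (Θ ^ t) *ᵥ v := by
    have : (1 + q * Θ) *ᵥ (Θ ^ t) *ᵥ v = (Θ ^ t) *ᵥ v := by
      rw [add_mulVec, one_mulVec, ← mulVec_mulVec, mulVec_mulVec v, ← pow_succ', hv0,
        mulVec_zero, add_zero]
    conv_lhs => rw [← this, mulVec_mulVec, hW, one_mulVec]
  have hker : ∀ x, Θ *ᵥ x = 0 → (W * α) *ᵥ x = (l ⬝ᵥ x) • (Θ ^ t) *ᵥ v := fun x hx => by
    rw [← mulVec_mulVec, hα, Finset.sum_range_succ, add_mulVec, sum_mulVec,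
      Finset.sum_eq_zero fun j hj => by
        rw [show t - j = t - j - 1 + 1 by have := Finset.mem_range.1 hj; omega, pow_succ,
          ← mul_assoc, ← mulVec_mulVec, hx, mulVec_zero],
      zero_add, Nat.sub_self, pow_zero, mul_one, ← mulVec_mulVec, hRx, mulVec_smul, mulVec_smul, hU1]
  refine ⟨W * α, v, ?_, ((c3 Θ rfl).mul_right c1).symm, ?_, ?_, ?_, hv, fun e => hk (congrFun e k),
    by rw [hker _ (by rw [mulVec_mulVec, ← pow_succ', hv0]), hl1, one_smul],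
    fun x hx => ⟨_, hker x hx⟩⟩
  · rw [mul_assoc, ← mul_assoc α, (c3 α c1.symm).eq, mul_assoc, hαα, ← mul_assoc W (1 + _), hW,
      one_mul]
  · rw [← mul_assoc, (c3 ε hc).eq, mul_assoc, hα, Finset.mul_sum]
    congr 1
    refine Finset.sum_congr rfl fun j _ => ?_
    rw [← mul_assoc, ← mul_assoc, hc', mul_assoc _ ε, hR, mul_vecMulVec ε, hv]
  · rw [mul_assoc, hα, Finset.sum_mul]
    congr 1
    refine Finset.sum_congr rfl fun j _ => ?_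
    rw [mul_assoc, ← hc', ← mul_assoc, mul_assoc _ R, hR, vecMulVec_mul, hl]
  · rw [hα, Finset.mul_sum, trace_sum, Finset.sum_congr rfl (g := fun _ => (1 : F)) fun j hj => ?_]
    · simp
    rw [← mul_assoc, trace_mul_comm, ← mul_assoc, ← mul_assoc,
      ((c3 Θ rfl).pow_left _).eq, mul_assoc W, ← pow_add,
      Nat.sub_add_cancel (Nat.lt_succ_iff.1 (Finset.mem_range.1 hj)), hR, mul_vecMulVec,
      trace_vecMulVec, ← mulVec_mulVec, hU1, dotProduct_comm, hl1]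

theorem jor_aux {F n : Type*} [Field F] [Fintype n] [DecidableEq n] {Θ : Matrix n n F}
    (hΘ : IsNilpotent Θ) (d : ℕ) : ∀ ε : Matrix n n F, ε.rank = d → ε * ε = ε → ε * Θ = Θ * ε →
    ε.trace ≠ 0 → (∀ e₁ e₂, Orth Θ ε e₁ e₂ → e₁.trace = 0 ∨ e₂.trace = 0) →
    ∃ (i : ℕ) (x₀ : n → F), ((i + 1 : ℕ) : F) ≠ 0 ∧ Θ *ᵥ x₀ = 0 ∧ (∃ w, (Θ ^ i) *ᵥ w = x₀) ∧
      ε *ᵥ x₀ = x₀ ∧ (¬ ∃ w, (Θ ^ (i + 1)) *ᵥ w = x₀) ∧ ∀ x, Θ *ᵥ x = 0 → (∃ w, (Θ ^ i) *ᵥ w = x) →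
        ∃ (y : F) (w : n → F), ε *ᵥ x = y • x₀ + (Θ ^ (i + 1)) *ᵥ w := by
  classical
  induction d using Nat.strong_induction_on with
  | _ d ih =>
  intro ε hd hε hc ht h
  have hc' : ∀ j, ε * Θ ^ j = Θ ^ j * ε := fun j => (Commute.pow_right hc j).eq
  have hex : ∃ s, Θ ^ s * ε = 0 := hΘ.imp fun s e => by rw [e, zero_mul]
  obtain ⟨t, h0, h1⟩ : ∃ t, Θ ^ (t + 1) * ε = 0 ∧ Θ ^ t * ε ≠ 0 := by
    have h1 := Nat.find_spec hex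
    obtain ⟨t, e⟩ := Nat.exists_eq_succ_of_ne_zero (n := Nat.find hex) fun e => ht (by
      rw [e, pow_zero, one_mul] at h1; rw [h1, trace_zero])
    exact ⟨t, by rwa [e] at h1, Nat.find_min hex (by omega)⟩
  obtain ⟨e, v, a1, a2, a3, a4, a5, a6, a7, a8, a9⟩ := jor_block hΘ hε hc h0 h1
  have b1 : (ε - e) * (ε - e) = ε - e := by rw [sub_mul, mul_sub, mul_sub, hε, a3, a4, a1]; abel
  have b2 : (ε - e) * Θ = Θ * (ε - e) := by rw [sub_mul, mul_sub, hc, a2]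
  have b3 : ε * (ε - e) = ε - e := by rw [mul_sub, hε, a3]
  have b4 : (ε - e) * ε = ε - e := by rw [sub_mul, hε, a4]
  have b5 : e * (ε - e) = 0 := by rw [mul_sub, a4, a1, sub_self]
  have b6 : (ε - e) * e = 0 := by rw [sub_mul, a3, a1, sub_self]
  have b7 : Θ ^ (t + 1) * (ε - e) = 0 := by rw [← b3, ← mul_assoc, h0, zero_mul]
  have hx : ε *ᵥ (Θ ^ t) *ᵥ v = (Θ ^ t) *ᵥ v := by rw [mulVec_mulVec, hc', ← mulVec_mulVec, a6]
  by_cases hs : ((t + 1 : ℕ) : F) = 0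
  · obtain ⟨i, x₀, c1, c2, ⟨w, c3⟩, c4, c5, c6⟩ := ih (ε - e).rank (by
      rw [← hd]
      refine Submodule.finrank_lt_finrank_of_lt (lt_of_le_of_ne ?_ fun e => a7 ?_)
      · rintro _ ⟨z, rfl⟩
        exact ⟨(ε - _) *ᵥ z, by rw [mulVecLin_apply, mulVec_mulVec, b3, mulVecLin_apply]⟩
      · obtain ⟨z, hz⟩ := e.ge ⟨_, hx⟩
        rw [← a8, ← hz, mulVecLin_apply, mulVec_mulVec, b5, zero_mulVec]) _ rfl b1 b2
      (by rwa [trace_sub, a5, hs, sub_zero]) fun e₁ e₂ o => h e₁ e₂ { o with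
        l1 := by rw [← o.l1, ← mul_assoc, b3]
        r1 := by rw [← o.r1, mul_assoc, b4]
        l2 := by rw [← o.l2, ← mul_assoc, b3]
        r2 := by rw [← o.r2, mul_assoc, b4] }
    have hi : i + 1 ≤ t := by
      by_contra hi
      rcases (show t ≤ i by omega).eq_or_lt with rfl | hi
      · exact c1 hs
      · obtain ⟨j, rfl⟩ := Nat.exists_eq_add_of_lt hi
        refine c5 ⟨0, ?_⟩
        rw [mulVec_zero, ← c4, ← c3, mulVec_mulVec, (Commute.pow_right b2 _).eq,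
          show t + j + 1 = j + (t + 1) by ring, pow_add, mul_assoc, b7, mul_zero, zero_mulVec]
    refine ⟨i, x₀, c1, c2, ⟨w, c3⟩, by rw [← c4, mulVec_mulVec, b3], c5, fun x h2 h3 => ?_⟩
    obtain ⟨y, w', e1⟩ := c6 x h2 h3
    obtain ⟨y', e2⟩ := a9 x h2
    refine ⟨y, w' + y' • (Θ ^ (t - (i + 1))) *ᵥ v, ?_⟩
    rw [mulVec_add, ← add_assoc, ← e1, mulVec_smul, mulVec_mulVec, ← pow_add,
      Nat.add_sub_cancel' hi, ← e2, ← add_mulVec, sub_add_cancel]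
  · have h2 : Θ ^ t * (ε - e) = 0 := by
      by_contra h2
      obtain ⟨e', -, d1, d2, d3, d4, d5, -⟩ := jor_block hΘ b1 b2 b7 h2
      exact (h e e' ⟨a1, d1, by rw [← d3, ← mul_assoc, b5, zero_mul],
        by rw [← d4, mul_assoc, b6, mul_zero], a2, d2, a3, a4, by rw [← d3, ← mul_assoc, b3],
        by rw [← d4, mul_assoc, b4]⟩).elim (a5 ▸ hs) (d5 ▸ hs)
    refine ⟨t, _, hs, by rw [mulVec_mulVec, ← pow_succ', ← a6, mulVec_mulVec, h0, zero_mulVec],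
      ⟨v, rfl⟩, hx, fun ⟨w, e1⟩ => a7 (by
        rw [← hx, ← e1, mulVec_mulVec, hc', h0, zero_mulVec]), ?_⟩
    rintro _ h3 ⟨w, rfl⟩
    obtain ⟨y, e2⟩ := a9 _ h3
    refine ⟨y, 0, ?_⟩
    rw [mulVec_zero, add_zero, ← e2, mulVec_mulVec, mulVec_mulVec, hc', (Commute.pow_right a2 t).eq,
      sub_eq_zero.1 ((mul_sub _ _ _).symm.trans h2)]

theorem jor {F n : Type*} [Field F] [Fintype n] [DecidableEq n] {Θ ε : Matrix n n F}
    (hΘ : IsNilpotent Θ) (hε : ε * ε = ε) (hc : ε * Θ = Θ * ε) (ht : ε.trace ≠ 0)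
    (h : ∀ e₁ e₂, Orth Θ ε e₁ e₂ → e₁.trace = 0 ∨ e₂.trace = 0) :
    ∃ (i : ℕ) (x₀ : n → F), Θ *ᵥ x₀ = 0 ∧ (∃ w, (Θ ^ i) *ᵥ w = x₀) ∧ ε *ᵥ x₀ = x₀ ∧
      (¬ ∃ w, (Θ ^ (i + 1)) *ᵥ w = x₀) ∧ ∀ x, Θ *ᵥ x = 0 → (∃ w, (Θ ^ i) *ᵥ w = x) →
        ∃ (y : F) (w : n → F), ε *ᵥ x = y • x₀ + (Θ ^ (i + 1)) *ᵥ w := by
  obtain ⟨i, x₀, -, h1⟩ := jor_aux hΘ _ ε rfl hε hc ht h
  exact ⟨i, x₀, h1⟩

end Cfsg.Agent.DGN
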