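import Cfsg.Agent.DGN.Schur
import Cfsg.Agent.DGN.Jor

/-!
Two tools for the construction of the representation of the normalizer: the section of a matrix
block of a group algebra, and the semilinear cocycle on a multiplicity-one Jordan layer.
-/

set_option autoImplicit false

namespace Cfsg.Agent.DGN

open Matrix

section Sec

variable {k C m n : Type*} [Field k] [Group C] [Fintype C] [Fintype m] [DecidableEq m]
  [Fintype n] [DecidableEq n] (π : C →* Matrix m m k) (ρ : C →* Matrix n n k)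

/-- The matrix block of `π` in the group algebra, represented in `ρ`. -/
noncomputable def sec : Matrix m m k →ₗ[k] Matrix n n k where
  toFun A := ((Fintype.card m : k) / Fintype.card C) • ∑ c, (A * π c⁻¹).trace • ρ c
  map_add' A B := by simp only [add_mul, trace_add, add_smul, Finset.sum_add_distrib, smul_add]
  map_smul' r A := by
    simp only [smul_mul_assoc, trace_smul, smul_eq_mul, mul_smul, ← Finset.smul_sum,
      RingHom.id_apply]
    rw [smul_comm]

theorem sec_apply (A : Matrix m m k) :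
    sec π ρ A = ((Fintype.card m : k) / Fintype.card C) • ∑ c, (A * π c⁻¹).trace • ρ c := rfl

theorem mul_sec (c : C) (A : Matrix m m k) : ρ c * sec π ρ A = sec π ρ (π c * A) := by
  rw [sec_apply, sec_apply, mul_smul_comm, Finset.mul_sum]
  congr 1
  refine Fintype.sum_equiv (Equiv.mulLeft c) _ _ fun x => ?_
  rw [Equiv.coe_mulLeft, mul_smul_comm, map_mul, _root_.mul_inv_rev, map_mul, ← mul_assoc,
    trace_mul_comm _ (π c⁻¹), ← mul_assoc, ← mul_assoc, ← map_mul π, inv_mul_cancel, map_one,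
    one_mul]

theorem sec_mul_rep (c : C) (A : Matrix m m k) : sec π ρ A * ρ c = sec π ρ (A * π c) := by
  rw [sec_apply, sec_apply, smul_mul_assoc, Finset.sum_mul]
  congr 1
  refine Fintype.sum_equiv (Equiv.mulRight c) _ _ fun x => ?_
  rw [Equiv.coe_mulRight, smul_mul_assoc, map_mul, _root_.mul_inv_rev, mul_assoc, ← map_mul π,
    mul_inv_cancel_left]

theorem commute_sec {X : Matrix n n k} (h : ∀ c, X * ρ c = ρ c * X) (A : Matrix m m k) :
    X * sec π ρ A = sec π ρ A * X := by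
  simp only [sec_apply, mul_smul_comm, smul_mul_assoc, Finset.mul_sum, Finset.sum_mul, h]

variable {π} [Nonempty m] (hC : (Fintype.card C : k) ≠ 0)
  (hπ : Submodule.span k (Set.range π) = ⊤)

include hC hπ

theorem sec_mul (A B : Matrix m m k) : sec π ρ A * sec π ρ B = sec π ρ (A * B) := by
  obtain ⟨h1, h2⟩ := schur hC π hπ
  have h3 : A = ((Fintype.card m : k) / Fintype.card C) • ∑ c, (A * π c⁻¹).trace • π c := by
    rw [h2, smul_smul, div_mul_div_cancel₀ hC, div_self h1, one_smul]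
  conv_rhs => rw [h3]
  rw [sec_apply π ρ A]
  simp only [smul_mul_assoc, Finset.sum_mul, map_smul, map_sum, mul_sec]

theorem trace_sec_single_ne_zero (o : m) (hm : ∑ c, (π c⁻¹).trace * (ρ c).trace ≠ 0) :
    (sec π ρ (single o o 1)).trace ≠ 0 := by
  intro h
  have h1 : ∀ a, (sec π ρ (single a a 1)).trace = 0 := fun a => by
    have e : ∀ a b : m, single a a (1 : k) = single a b 1 * single b a 1 := fun a b => by simp
    rw [e a o, ← sec_mul ρ hC hπ, trace_mul_comm, sec_mul ρ hC hπ, ← e, h]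
  have h2 : (sec π ρ 1).trace = 0 := by
    rw [← sum_single_one, map_sum, trace_sum]
    exact Finset.sum_eq_zero fun a _ => h1 a
  simp only [sec_apply, one_mul, trace_smul, trace_sum, smul_eq_mul] at h2
  exact hm ((mul_eq_zero.mp h2).resolve_left (div_ne_zero (schur hC π hπ).1 hC))

end Sec

theorem coc {F n m H : Type*} [Field F] [Fintype n] [DecidableEq n] [Fintype m] [DecidableEq m]
    [Group H] {Θ : Matrix n n F} (hΘ : IsNilpotent Θ) (o : m) (E : m → m → Matrix n n F)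
    (hE : ∀ a b c d, E a b * E c d = if b = c then E a d else 0) (hc : ∀ a b, E a b * Θ = Θ * E a b)
    (ht : (E o o).trace ≠ 0) (h : ∀ e₁ e₂, Orth Θ (E o o) e₁ e₂ → e₁.trace = 0 ∨ e₂.trace = 0)
    (T : H → (n → F) →+ (n → F)) (s : H → F →+* F) (hs : ∀ g y v, T g (y • v) = s g y • T g v)
    (hT : ∀ g h v, T (g * h) v = T g (T h v)) (hTΘ : ∀ g v, T g (Θ *ᵥ v) = Θ *ᵥ T g v)
    (hTE : ∀ g v, T g ((∑ a, E a a) *ᵥ v) = (∑ a, E a a) *ᵥ T g v) :
    ∃ A : H → Matrix m m F, (∀ g h, A (g * h) = A g * (A h).map (s g)) ∧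
      ∀ g (X : Matrix m m F), (∀ a b v, E o a *ᵥ T g (E b o *ᵥ v) = X a b • E o o *ᵥ v) →
        A g = X := by
  have hE1 : ∀ a b c, E a b * E b c = E a c := fun a b c => by rw [hE, if_pos rfl]
  obtain ⟨i, x₀, h1, ⟨w₀, h2⟩, h3, h4, h5⟩ := jor hΘ (hE1 o o o) (hc o o) ht h
  obtain ⟨l, hl1, hl2⟩ : ∃ l : (n → F) →ₗ[F] F, l x₀ = 1 ∧ ∀ w, l ((Θ ^ (i + 1)) *ᵥ w) = 0 := by
    obtain ⟨l, hl1, hl2⟩ := Submodule.exists_dual_map_eq_bot_of_notMem
      (p := LinearMap.range (Θ ^ (i + 1)).mulVecLin) (x := x₀) h4 inferInstance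
    refine ⟨(l x₀)⁻¹ • l, by simp [hl1], fun w => ?_⟩
    have : l ((Θ ^ (i + 1)) *ᵥ w) ∈ Submodule.map l (LinearMap.range (Θ ^ (i + 1)).mulVecLin) :=
      ⟨_, ⟨w, rfl⟩, rfl⟩
    rw [hl2, Submodule.mem_bot] at this
    simp [this]
  have hTp : ∀ g j v, T g ((Θ ^ j) *ᵥ v) = (Θ ^ j) *ᵥ T g v := fun g j => by
    induction j with
    | zero => simp
    | succ j ih => intro v; rw [pow_succ, ← mulVec_mulVec, ih, hTΘ, mulVec_mulVec]
  have hEp : ∀ a b j v, E a b *ᵥ ((Θ ^ j) *ᵥ v) = (Θ ^ j) *ᵥ (E a b *ᵥ v) := fun a b j v => by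
    rw [mulVec_mulVec, mulVec_mulVec, (Commute.pow_right (hc a b) j).eq]
  have hE0 : ∀ a b v, Θ *ᵥ v = 0 → Θ *ᵥ (E a b *ᵥ v) = 0 := fun a b v hv => by
    rw [mulVec_mulVec, ← hc, ← mulVec_mulVec, hv, mulVec_zero]
  refine ⟨fun g => of fun a b => l (E o a *ᵥ T g (E b o *ᵥ x₀)), fun g h => ?_, fun g X hX => ?_⟩
  · have key : ∀ b, ∃ w, T h (E b o *ᵥ x₀) =
        ∑ a, l (E o a *ᵥ T h (E b o *ᵥ x₀)) • E a o *ᵥ x₀ + (Θ ^ (i + 1)) *ᵥ w := fun b => by
      have e1 : ∀ a, ∃ w, E o a *ᵥ T h (E b o *ᵥ x₀) =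
          l (E o a *ᵥ T h (E b o *ᵥ x₀)) • x₀ + (Θ ^ (i + 1)) *ᵥ w := fun a => by
        obtain ⟨y, w, e⟩ := h5 (E o a *ᵥ T h (E b o *ᵥ x₀))
          (hE0 _ _ _ (by rw [← hTΘ, hE0 _ _ _ h1, map_zero]))
          ⟨_, by rw [← h2, hEp, hTp, hEp]⟩
        rw [mulVec_mulVec, hE1] at e
        refine ⟨w, ?_⟩
        have : l (E o a *ᵥ T h (E b o *ᵥ x₀)) = y := by
          rw [e, map_add, map_smul, hl1, hl2, smul_eq_mul, mul_one, add_zero]
        rw [this, e]
      choose w hw using e1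
      refine ⟨∑ a, E a o *ᵥ w a, ?_⟩
      have e2 : E b o *ᵥ x₀ = (∑ a, E a a) *ᵥ (E b o *ᵥ x₀) := by
        rw [mulVec_mulVec, Finset.sum_mul]
        simp [hE]
      rw [mulVec_sum, ← Finset.sum_add_distrib]
      conv_lhs => rw [e2, hTE, sum_mulVec]
      refine Finset.sum_congr rfl fun a _ => ?_
      rw [← hE1 a o a, ← mulVec_mulVec, ← hEp, ← mulVec_smul, ← mulVec_add, ← hw]
    ext c b
    obtain ⟨w, hw⟩ := key b
    simp only [mul_apply, of_apply, map_apply]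
    rw [hT, hw, map_add, hTp, mulVec_add, hEp, map_add, hl2, add_zero, map_sum, mulVec_sum, map_sum]
    refine Finset.sum_congr rfl fun a _ => ?_
    rw [hs, mulVec_smul, map_smul, smul_eq_mul, mul_comm, ← hw]
  · ext a b
    simp only [of_apply]
    rw [hX, h3, map_smul, hl1, smul_eq_mul, mul_one]

end Cfsg.Agent.DGN
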