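import Cfsg.Agent.H34.PCover
import Cfsg.Agent.H34.PSolvB
import Cfsg.Agent.H34.FongReynolds
import Mathlib.Algebra.MvPolynomial.Nilpotent
import Mathlib.RingTheory.Localization.FractionRing
import Mathlib.RingTheory.Polynomial.UniqueFactorization

/-!
Vocabulary for the character triple isomorphism above the Glauberman correspondence: the generic
element `∑ t_g (g - 1)` over the field of rational functions, and sign-free perfect isometries.
-/

set_option autoImplicit false

namespace Cfsg.Agent.DGN

open Cfsg

/-- The field of rational functions over `k` in variables indexed by `ι`. -/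
abbrev GF (ι k : Type*) [Field k] := FractionRing (MvPolynomial ι k)

section Gen

variable {ι k n : Type*} [Field k]

variable (k) in
/-- The variables. -/
noncomputable def tv (i : ι) : GF ι k := algebraMap (MvPolynomial ι k) _ (MvPolynomial.X i)

variable (ι) in
/-- A constant matrix. -/
noncomputable def cm (A : Matrix n n k) : Matrix n n (GF ι k) := A.map (algebraMap k _)

variable (k) in
/-- The automorphism permuting the variables. -/
noncomputable def sig (e : Equiv.Perm ι) : GF ι k ≃ₐ[k] GF ι k :=
  IsFractionRing.algEquivOfAlgEquiv (MvPolynomial.renameEquiv k e)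

theorem sig_algebraMap (e : Equiv.Perm ι) (r : MvPolynomial ι k) :
    sig k e (algebraMap (MvPolynomial ι k) _ r) =
      algebraMap (MvPolynomial ι k) _ (MvPolynomial.rename e r) :=
  IsFractionRing.algEquivOfAlgEquiv_algebraMap _ r

theorem sig_tv (e : Equiv.Perm ι) (i : ι) : sig k e (tv k i) = tv k (e i) := by
  rw [tv, sig_algebraMap, MvPolynomial.rename_X, tv]

theorem sig_one (x : GF ι k) : sig k (1 : Equiv.Perm ι) x = x := by
  obtain ⟨a, b, -, rfl⟩ := IsFractionRing.div_surjective (A := MvPolynomial ι k) x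
  simp only [map_div₀, sig_algebraMap, Equiv.Perm.coe_one, MvPolynomial.rename_id_apply]

theorem sig_mul (e f : Equiv.Perm ι) (x : GF ι k) : sig k (e * f) x = sig k e (sig k f x) := by
  obtain ⟨a, b, -, rfl⟩ := IsFractionRing.div_surjective (A := MvPolynomial ι k) x
  simp only [map_div₀, sig_algebraMap, Equiv.Perm.coe_mul, MvPolynomial.rename_rename]

theorem cm_apply (A : Matrix n n k) (i j : n) : cm ι A i j = algebraMap k _ (A i j) := rfl

theorem cm_map_sig (e : Equiv.Perm ι) (A : Matrix n n k) : (cm ι A).map (sig k e) = cm ι A := by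
  ext i j
  simp [cm_apply]

theorem cm_injective : Function.Injective (cm ι : Matrix n n k → Matrix n n (GF ι k)) :=
  fun _ _ h => Matrix.ext fun i j => (algebraMap k (GF ι k)).injective (congrFun (congrFun h i) j)

variable [Fintype n] [DecidableEq n]

theorem cm_eq (A : Matrix n n k) : cm ι A = (algebraMap k (GF ι k)).mapMatrix A := rfl

theorem cm_mul (A B : Matrix n n k) : cm ι (A * B) = cm ι A * cm ι B := by
  simp only [cm_eq, map_mul]

theorem cm_one : cm ι (1 : Matrix n n k) = 1 := by simp only [cm_eq, map_one]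

variable [Fintype ι]

/-- The generic element `∑ t_i (a_i - 1)`. -/
noncomputable def Th (a : ι → Matrix n n k) : Matrix n n (GF ι k) :=
  ∑ i, tv k i • (cm ι (a i) - 1)

/-- The generic element acting by conjugation (`b i` is the inverse of `a i`). -/
noncomputable def ths (a b : ι → Matrix n n k) (B : Matrix n n (GF ι k)) : Matrix n n (GF ι k) :=
  ∑ i, tv k i • (cm ι (a i) * B * cm ι (b i) - B)

end Gen

/-- `e₁`, `e₂` are orthogonal idempotents below `ε` commuting with `Θ`. -/
structure Orth {F n : Type*} [Field F] [Fintype n] (Θ ε e₁ e₂ : Matrix n n F) : Prop where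
  i1 : e₁ * e₁ = e₁
  i2 : e₂ * e₂ = e₂
  o1 : e₁ * e₂ = 0
  o2 : e₂ * e₁ = 0
  c1 : e₁ * Θ = Θ * e₁
  c2 : e₂ * Θ = Θ * e₂
  l1 : ε * e₁ = e₁
  r1 : e₁ * ε = e₁
  l2 : ε * e₂ = e₂
  r2 : e₂ * ε = e₂

/-- A sign-free perfect isometry from `c` onto `B`. -/
def PI (p : ℕ) (M : Ideal AlgInt) {G H : Type*} [Group G] [Group H] (c : Set (IrrCharacter H))
    (B : Set (IrrCharacter G)) : Prop :=
  ∃ I : IrrCharacter H → IrrCharacter G, Set.BijOn I c B ∧
    IsPerfectFun p M fun (x : G) (y : H) => ∑ᶠ η ∈ c, (I η : G → ℂ) x * (η : H → ℂ) y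

/-- The multiplicity of `φ` in the class function `θ` is an integer prime to `p`. -/
def Gl (p : ℕ) {C : Type*} [Group C] [Fintype C] (θ φ : C → ℂ) : Prop :=
  ∃ m : ℕ, classInner θ φ = m ∧ ¬ p ∣ m

end Cfsg.Agent.DGN
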