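import Cfsg.Agent.DGN.Defs
import Cfsg.Agent.H32.IBr4
import Mathlib.RepresentationTheory.Maschke
import Mathlib.RingTheory.SimpleRing.Matrix

set_option autoImplicit false

namespace Cfsg.Agent.DGN

open Cfsg Cfsg.Agent.H32

variable {M : Ideal AlgInt} [hMm : M.IsMaximal] {p : ℕ}

namespace Red

theorem irr_add {N : Type*} [Group N] [Finite N] {α β : N → ℂ} (hα : IsCharacter N α)
    (hβ : IsCharacter N β) (h : IsIrrCharacter N (α + β)) (h0 : α ≠ 0) : β = 0 := by
  have := Fintype.ofFinite N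
  have h1 := H5.classInner_irr_self h
  rw [H5.classInner_add_left, H5.classInner_add_right, H5.classInner_add_right] at h1
  obtain ⟨a, ha⟩ := H5.exists_nat_classInner hα hα
  obtain ⟨b, hb⟩ := H5.exists_nat_classInner hα hβ
  obtain ⟨c, hc⟩ := H5.exists_nat_classInner hβ hα
  obtain ⟨d, hd⟩ := H5.exists_nat_classInner hβ hβ
  rw [ha, hb, hc, hd] at h1
  have h2 : a + b + (c + d) = 1 := by exact_mod_cast h1
  have h3 : a ≠ 0 := fun h => h0 (H5.classInner_self_eq_zero.1 (by rw [ha, h, Nat.cast_zero]))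
  exact H5.classInner_self_eq_zero.1 (by rw [hd, show d = 0 by omega, Nat.cast_zero])

theorem reg_of {G N : Type*} [Group G] [Group N] [Finite N] (ν : N →* G)
    (hN : ¬ p ∣ Nat.card N) (x : N) : ¬ p ∣ orderOf (ν x) := fun h =>
  hN (h.trans ((orderOf_map_dvd ν x).trans (orderOf_dvd_natCard x)))

theorem reg_id {N : Type*} [Group N] [Finite N] (hN : ¬ p ∣ Nat.card N) (x : N) :
    ¬ p ∣ orderOf x := reg_of (MonoidHom.id N) hN x

theorem eq_phi {G N : Type*} [Group G] [Finite G] [Group N] [Finite N] (hM : IsPModular p M)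
    (ν : N →* G) (hN : ¬ p ∣ Nat.card N) {χ : G → ℂ} (hχ : IsCharacter G χ)
    (hν : IsIrrCharacter N fun n => χ (ν n)) {i : IBr M G} (hi : dec χ i ≠ 0) :
    ∀ g, ¬ p ∣ orderOf g → χ g = phi i g := by
  classical
  let n : IBr M G → ℕ := fun l => dec χ l - if l = i then 1 else 0
  have hn : ∀ l, dec χ l = (if l = i then 1 else 0) + n l := fun l => by
    simp only [n]
    split_ifs with h
    · subst h; omega
    · omega
  have h1 : ∀ g, ¬ p ∣ orderOf g → χ g = phi i g + ∑ l, (n l : ℂ) * phi l g := fun g hg => by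
    rw [apply_eq_sum_phi hM (H5.isClassFunction_of_isCharacter hχ) hg]
    simp only [← cast_dec hχ, hn, Nat.cast_add, add_mul, Finset.sum_add_distrib]
    simp
  have hc : ∀ l : IBr M G, IsCharacter N fun x => phi l (ν x) := fun l =>
    isCharacter_phi_comp hM l ν (reg_of ν hN)
  have h2 : (∑ l, (n l : ℂ) • fun x => phi l (ν x)) = 0 := by
    refine irr_add (hc i) (H5.isCharacter_sum _ _ fun l _ => H5.isCharacter_natCast_smul (hc l) _)
      ?_ fun h => ?_
    · convert hν using 1
      funext x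
      simp [h1 _ (reg_of ν hN x)]
    · have := congrFun h 1
      simp only [map_one, phi_one, Pi.zero_apply, Nat.cast_eq_zero] at this
      exact i.deg_pos.ne' this
  have h3 : ∑ l, n l * l.deg = 0 := by
    have := congrFun h2 1
    simp only [Finset.sum_apply, Pi.smul_apply, map_one, phi_one, smul_eq_mul, Pi.zero_apply]
      at this
    exact_mod_cast this
  have h4 : ∀ l, n l = 0 := fun l =>
    (mul_eq_zero.1 (Finset.sum_eq_zero_iff.1 h3 l (Finset.mem_univ _))).resolve_right
      l.deg_pos.ne'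
  intro g hg
  simp [h1 g hg, h4]

theorem inj_of_mul {k n B : Type*} [Field k] [Fintype n] [DecidableEq n] [Ring B] [Algebra k B]
    (f : Matrix n n k →ₗ[k] B) (hm : ∀ X Y, f (X * Y) = f X * f Y) (h : f ≠ 0) :
    Function.Injective f := by
  rw [injective_iff_map_eq_zero]
  intro X hX
  by_contra h0
  obtain ⟨a, b, hab⟩ : ∃ a b, X a b ≠ 0 := by
    by_contra! hc
    exact h0 (Matrix.ext hc)
  refine h (LinearMap.ext fun Y => ?_)
  have h1 : ∀ c e : n, f (Matrix.single c e 1) = 0 := fun c e => by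
    have h2 : Matrix.single c a (1 : k) * X * Matrix.single b e 1 =
        X a b • Matrix.single c e (1 : k) := by
      simp [Matrix.single_mul_mul_single]
    have h3 := congrArg f h2
    rw [hm, hm, hX, mul_zero, zero_mul, map_smul] at h3
    exact (smul_eq_zero.1 h3.symm).resolve_left hab
  rw [Matrix.matrix_eq_sum_single Y, map_sum]
  refine Finset.sum_eq_zero fun c _ => ?_
  rw [map_sum]
  refine Finset.sum_eq_zero fun e _ => ?_
  rw [show Matrix.single c e (Y c e) = Y c e • Matrix.single c e (1 : k) by simp, map_smul, h1,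
    smul_zero]

variable (M) in
/-- The Wedderburn map as an algebra homomorphism. -/
noncomputable def πA (G : Type*) [Group G] [Finite G] :
    MonoidAlgebra (Res M) G →ₐ[Res M] PiMat (Res M) (weddK M G).d :=
  AlgHom.mk' (weddK M G).π weddK_smul

theorem πA_apply {G : Type*} [Group G] [Finite G] (a : MonoidAlgebra (Res M) G) :
    πA M G a = (weddK M G).π a := rfl

theorem πA_bij {K : Type*} [Group K] [Finite K] (hM : IsPModular p M) (hK : ¬ p ∣ Nat.card K) :
    Function.Bijective (πA M K) := by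
  have := res_charP hM
  have : NeZero (Nat.card K : Res M) := ⟨fun h => hK ((CharP.cast_eq_zero_iff _ p _).1 h)⟩
  refine ⟨(injective_iff_map_eq_zero _).2 fun a ha => ?_, (weddK M K).surj⟩
  have := (weddK_eq_zero_iff a).1 ha
  rwa [IsSemisimpleRing.jacobson_eq_bot, Ideal.mem_bot] at this

/-- The restriction of an algebra homomorphism to one Wedderburn component. -/
theorem exists_comp {K B : Type*} [Group K] [Finite K] [Ring B] [Algebra (Res M) B]
    (hM : IsPModular p M) (hK : ¬ p ∣ Nat.card K) (ψ : MonoidAlgebra (Res M) K →ₐ[Res M] B)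
    (j : IBr M K) :
    ∃ f : Matrix (Fin ((weddK M K).d j)) (Fin ((weddK M K).d j)) (Res M) →ₗ[Res M] B,
      (∀ X Y, f (X * Y) = f X * f Y) ∧ (∀ X, ∃ a, (weddK M K).π a = Pi.single j X ∧ f X = ψ a) ∧
      ∀ X a, (weddK M K).π a = Pi.single j X → f X = ψ a := by
  let e := AlgEquiv.ofBijective (πA M K) (πA_bij hM hK)
  let f : Matrix (Fin ((weddK M K).d j)) (Fin ((weddK M K).d j)) (Res M) →ₗ[Res M] B :=
    ψ.toLinearMap ∘ₗ e.symm.toLinearMap ∘ₗ LinearMap.single (Res M)
      (fun l => Matrix (Fin ((weddK M K).d l)) (Fin ((weddK M K).d l)) (Res M)) j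
  have hf : ∀ X, f X = ψ (e.symm (Pi.single j X)) := fun X => rfl
  refine ⟨f, fun X Y => ?_, fun X => ⟨e.symm (Pi.single j X), e.apply_symm_apply _, hf X⟩,
    fun X a h => ?_⟩
  · rw [hf, hf, hf, ← map_mul, ← map_mul]
    congr 2
    exact Pi.single_mul (α := fun l => Matrix (Fin ((weddK M K).d l)) (Fin ((weddK M K).d l))
      (Res M)) j X Y
  · rw [hf, ← h]
    congr 1
    exact e.symm_apply_apply a

theorem span_of_surj {K B : Type*} [Group K] [Ring B] [Algebra (Res M) B]
    (ψ : MonoidAlgebra (Res M) K →ₐ[Res M] B) (h : Function.Surjective ψ) :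
    Submodule.span (Res M) (Set.range fun n : K => ψ (MonoidAlgebra.single n 1)) = ⊤ := by
  refine eq_top_iff.2 fun X _ => ?_
  obtain ⟨a, rfl⟩ := h X
  induction a using MonoidAlgebra.induction_linear with
  | zero => simp
  | add a b ha hb => rw [map_add]; exact add_mem (ha trivial) (hb trivial)
  | single g c =>
    rw [show MonoidAlgebra.single g c = c • MonoidAlgebra.single g (1 : Res M) by simp, map_smul]
    exact Submodule.smul_mem _ _ (Submodule.subset_span ⟨g, rfl⟩)

end Red

open Red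

theorem red {G N : Type*} [Group G] [Finite G] [Group N] [Finite N] (hM : IsPModular p M)
    (ν : N →* G) (hN : ¬ p ∣ Nat.card N) {χ : G → ℂ} (hχ : IsIrrCharacter G χ)
    (hν : IsIrrCharacter N fun n => χ (ν n)) :
    ∃ (d : ℕ) (ρ : G →* Matrix (Fin d) (Fin d) (Res M)), (d : ℂ) = χ 1 ∧
      Submodule.span (Res M) (Set.range fun n => ρ (ν n)) = ⊤ ∧
      ∀ g, ¬ p ∣ orderOf g → (ρ g).trace = redC M (χ g) := by
  obtain ⟨i, hi⟩ := exists_dec_ne_zero' (M := M) ⟨χ, hχ⟩
  obtain ⟨j, hj⟩ := exists_dec_ne_zero' (M := M) ⟨_, hν⟩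
  have h1 := eq_phi hM ν hN (H5.isCharacter_of_isIrr hχ) hν hi
  have h2 := eq_phi hM (MonoidHom.id N) hN (H5.isCharacter_of_isIrr hν) hν hj
  have h3 : (fun x => phi i (ν x)) = phi j := funext fun x => by
    rw [← h1 _ (reg_of ν hN x), ← h2 _ (reg_id hN x)]
  have hp1 : ¬ p ∣ orderOf (1 : G) := by rw [← map_one ν]; exact reg_of ν hN 1
  have hd : (weddK M N).d j = (weddK M G).d i := by
    have := congrFun h3 1
    simp only [map_one, phi_one, Nat.cast_inj] at this
    exact this.symm
  let τ : MonoidAlgebra (Res M) G →ₐ[Res M]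
      Matrix (Fin ((weddK M G).d i)) (Fin ((weddK M G).d i)) (Res M) :=
    (Pi.evalAlgHom (Res M) _ i).comp (πA M G)
  let ψ : MonoidAlgebra (Res M) N →ₐ[Res M]
      Matrix (Fin ((weddK M G).d i)) (Fin ((weddK M G).d i)) (Res M) :=
    τ.comp (H87.up ν)
  refine ⟨(weddK M G).d i, (τ : _ →* _).comp (MonoidAlgebra.of (Res M) G), ?_, ?_, fun g hg => ?_⟩
  · rw [h1 1 hp1, phi_one]; rfl
  · obtain ⟨f, hf1, hf2, hf3⟩ := exists_comp hM hN ψ j
    have hinj : Function.Injective f := inj_of_mul f hf1 fun h0 => by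
      have h4 := hf3 _ _ (π_redG_pim j)
      have h5 := cast_resM ν i j
      rw [h3, ev_phi_pim, if_pos rfl, resM, imult, redG_up ν (pim_mem_RG j), Wedd.mult] at h5
      have h6 : (weddK M G).π (H87.up ν (redG M (pim j))) i = 0 := by
        rw [h0] at h4
        exact h4.symm
      rw [h6, Matrix.rank_zero, Nat.cast_zero] at h5
      exact zero_ne_one h5
    have hsurj : Function.Surjective f :=
      (LinearMap.injective_iff_surjective_of_finrank_eq_finrank (by
        simp [Module.finrank_matrix, hd])).1 hinj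
    have := span_of_surj ψ fun X => by
      obtain ⟨Y, rfl⟩ := hsurj X
      obtain ⟨a, -, ha⟩ := hf2 Y
      exact ⟨a, ha.symm⟩
    rw [← this]
    congr 2
    funext n
    exact (congrArg τ (H87.up_single ν n 1)).symm
  · rw [h1 g hg, redC_phi hM i hg]
    rfl

theorem lift {K : Type*} [Group K] [Finite K] (hM : IsPModular p M) (hK : ¬ p ∣ Nat.card K)
    {d : ℕ} (hd : d ≠ 0) (ρ : K →* Matrix (Fin d) (Fin d) (Res M))
    (hρ : Submodule.span (Res M) (Set.range ρ) = ⊤) :
    ∃ χ, IsIrrCharacter K χ ∧ χ 1 = d ∧ ∀ g, (ρ g).trace = redC M (χ g) := by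
  classical
  have : Nonempty (Fin d) := ⟨⟨0, Nat.pos_of_ne_zero hd⟩⟩
  let ψ : MonoidAlgebra (Res M) K →ₐ[Res M] Matrix (Fin d) (Fin d) (Res M) :=
    MonoidAlgebra.lift (Res M) _ K ρ
  have hψ : ∀ g, ψ (MonoidAlgebra.single g 1) = ρ g := fun g => by simp [ψ]
  have hs : Function.Surjective ψ := fun X => by
    have : Submodule.span (Res M) (Set.range ρ) ≤ LinearMap.range ψ.toLinearMap :=
      Submodule.span_le.2 (by rintro _ ⟨g, rfl⟩; exact ⟨_, hψ g⟩)
    exact this (hρ ▸ Submodule.mem_top)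
  have hinjπ := (πA_bij hM hK).1
  choose f hf1 hf2 hf3 using exists_comp hM hK ψ
  choose c hc1 hc2 using fun j => hf2 j 1
  have hc3 : ∑ j, c j = 1 := hinjπ (by
    rw [map_sum, map_one]
    simp only [πA_apply, hc1]
    exact Finset.univ_sum_single (1 : PiMat (Res M) (weddK M K).d))
  obtain ⟨i, hi⟩ : ∃ i, ψ (c i) ≠ 0 := by
    by_contra! h
    have := congrArg ψ hc3
    rw [map_sum, map_one, Finset.sum_eq_zero fun j _ => h j] at this
    exact zero_ne_one this
  have hl : ∀ a, f i ((weddK M K).π a i) = ψ (c i) * ψ a := fun a => by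
    rw [← map_mul]
    refine hf3 i _ _ ?_
    rw [map_mul, hc1]
    funext l
    by_cases h : l = i
    · subst h; simp
    · simp [Pi.single_eq_of_ne h]
  have hr : ∀ a, f i ((weddK M K).π a i) = ψ a * ψ (c i) := fun a => by
    rw [← map_mul]
    refine hf3 i _ _ ?_
    rw [map_mul, hc1]
    funext l
    by_cases h : l = i
    · subst h; simp
    · simp [Pi.single_eq_of_ne h]
  obtain ⟨r, hr1⟩ : ψ (c i) ∈ Set.range (Matrix.scalar (Fin d)) :=
    Matrix.mem_range_scalar_of_commute_single fun a b _ => by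
      obtain ⟨x, hx⟩ := hs (Matrix.single a b 1)
      rw [← hx]
      exact ((hl x).symm.trans (hr x)).symm
  have hone : ψ (c i) = 1 := by
    have h1 : ψ (c i) * ψ (c i) = ψ (c i) := by rw [← hc2, ← hf1, mul_one]
    rw [← hr1, ← map_mul] at h1
    have h2 := Matrix.scalar_inj.1 h1
    have h3 : r ≠ 0 := fun h => hi (by rw [← hr1, h, map_zero])
    rw [← hr1, mul_left_cancel₀ h3 (h2.trans (mul_one r).symm), map_one]
  have hbij : Function.Bijective (f i) :=
    ⟨inj_of_mul _ (hf1 i) fun h => hi (by rw [← hc2, h, LinearMap.zero_apply]), fun X => by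
      obtain ⟨a, rfl⟩ := hs X
      exact ⟨(weddK M K).π a i, by rw [hl, hone, one_mul]⟩⟩
  let e := AlgEquiv.ofLinearEquiv (LinearEquiv.ofBijective (f i) hbij)
    ((hc2 i).trans hone) (hf1 i)
  have hdd : i.deg = d := by
    have := e.toLinearEquiv.finrank_eq
    simp only [Module.finrank_matrix, Fintype.card_fin, Module.finrank_self, mul_one] at this
    exact Nat.mul_self_inj.1 this
  obtain ⟨χ, hχ⟩ := exists_dec_ne_zero i
  have h1 := fun g => eq_phi hM (MonoidHom.id K) hK (H5.isCharacter_of_isIrr χ.2) χ.2 hχ g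
    (reg_id hK g)
  refine ⟨χ, χ.2, by rw [h1, phi_one, hdd], fun g => ?_⟩
  rw [h1, redC_phi hM i (reg_id hK g), Wedd.tr_apply, ← hψ,
    ← one_mul (ψ _), ← hone, ← hl]
  exact Matrix.trace_map e _

end Cfsg.Agent.DGN
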