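import Cfsg.Agent.DGN.Defs
import Cfsg.Agent.DGN.Core
import Cfsg.Agent.DGN.Red
import Cfsg.Agent.S4444
import Cfsg.Agent.H6.Clifford
import Cfsg.Agent.H32.Roots

set_option autoImplicit false

namespace Cfsg.Agent.DGN

open Cfsg Subgroup Cfsg.Agent.H32 Cfsg.Agent.H5

/-- the reduction of an inner product of characters -/
theorem ext_red {M : Ideal AlgInt} [M.IsMaximal] {C : Type*} [Group C] [Fintype C] {α β : C → ℂ}
    (hα : IsCharacter C α) (hβ : IsCharacter C β) {m : ℕ} (h : classInner α β = m) :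
    ∑ c, redC M (β c⁻¹) * redC M (α c) = (Nat.card C : Res M) * m := by
  have hc : (Nat.card C : ℂ) ≠ 0 := Nat.cast_ne_zero.2 Nat.card_pos.ne'
  rw [classInner_eq_sum_inv α hβ, inv_mul_eq_iff_eq_mul₀ hc] at h
  have := congrArg (redC M) h
  rw [redC_sum _ _ fun c _ => mul_mem (char_mem_locRing hα _) (char_mem_locRing hβ _), ← Nat.cast_mul,
    redC_natCast, Nat.cast_mul] at this
  rw [← this]
  exact Finset.sum_congr rfl fun c _ => by
    rw [redC_mul (char_mem_locRing hα _) (char_mem_locRing hβ _), mul_comm]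

/-- conjugation by an element of the normaliser -/
def extConj {Γ : Type*} [Group Γ] (N P : Subgroup Γ) [N.Normal] (h : normalizer (P : Set Γ)) :
    (N ⊓ centralizer (P : Set Γ) : Subgroup Γ) ≃* (N ⊓ centralizer (P : Set Γ) : Subgroup Γ) :=
  have k : ∀ (h : normalizer (P : Set Γ)) (c : (N ⊓ centralizer (P : Set Γ) : Subgroup Γ)),
      h * (c : Γ) * (h : Γ)⁻¹ ∈ N ⊓ centralizer (P : Set Γ) := fun h c =>
    ⟨Normal.conj_mem inferInstance _ c.2.1 _, fun u hu => by
      have := c.2.2 _ ((mem_normalizer_iff''.1 h.2 u).1 hu)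
      calc u * (h * c * (h : Γ)⁻¹) = h * ((h : Γ)⁻¹ * u * h * c) * (h : Γ)⁻¹ := by group
        _ = _ := by rw [this]; group⟩
  { toFun := fun c => ⟨_, k h c⟩
    invFun := fun c => ⟨_, k h⁻¹ c⟩
    left_inv := fun c => Subtype.ext (by simp [mul_assoc])
    right_inv := fun c => Subtype.ext (by simp [mul_assoc])
    map_mul' := fun a b => Subtype.ext (by simp [mul_assoc]) }

theorem ext {M : Ideal AlgInt} {p : ℕ} {Γ : Type*} [Group Γ] [Finite Γ] (hM : IsPModular p M)
    (N P : Subgroup Γ) [N.Normal] (hN : ¬ p ∣ Nat.card N) (hP : IsPGroup p P)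
    (hab : ∀ x ∈ P, ∀ y ∈ P, x * y = y * x) (hS : ¬ p ∣ P.index) {χ : Γ → ℂ}
    (hχ : IsIrrCharacter Γ χ) (hθ : IsIrrCharacter N fun n => χ n)
    [Fintype (N ⊓ centralizer (P : Set Γ) : Subgroup Γ)]
    {φ : (N ⊓ centralizer (P : Set Γ) : Subgroup Γ) → ℂ} (hφ : IsIrrCharacter _ φ)
    (h : Gl p (fun c : (N ⊓ centralizer (P : Set Γ) : Subgroup Γ) => χ c) φ) :
    ∃ ψ, IsIrrCharacter (normalizer (P : Set Γ)) ψ ∧
      ∀ (c : (N ⊓ centralizer (P : Set Γ) : Subgroup Γ)) (h : normalizer (P : Set Γ)),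
        (h : Γ) = c → ψ h = φ c := by
  classical
  have := hM.2.1
  have := Fact.mk hM.1
  have := res_charP hM
  have := Fintype.ofFinite Γ
  have := Fintype.ofFinite N
  have hC : ¬ p ∣ Nat.card (N ⊓ centralizer (P : Set Γ) : Subgroup Γ) := fun k =>
    hN (k.trans (card_dvd_of_le inf_le_left))
  have hC0 : (Nat.card (N ⊓ centralizer (P : Set Γ) : Subgroup Γ) : Res M) ≠ 0 :=
    mt (CharP.cast_eq_zero_iff _ p _).1 hC
  have hord : ∀ c : (N ⊓ centralizer (P : Set Γ) : Subgroup Γ), ¬ p ∣ orderOf c := fun c k =>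
    hC (k.trans (orderOf_dvd_natCard c))
  obtain ⟨d, ρ, -, hρ, tρ⟩ := red hM N.subtype hN hχ hθ
  obtain ⟨d', π, hd', hπ, tπ⟩ := red hM (MonoidHom.id _) hC hφ hφ
  have d0 : d' ≠ 0 := fun e => degree_ne_zero hφ (by rw [← hd', e, Nat.cast_zero])
  have : Nonempty (Fin d') := ⟨⟨0, Nat.pos_of_ne_zero d0⟩⟩
  have cχ := isClassFunction_of_isIrr hχ
  have hχC : IsCharacter _ fun c : (N ⊓ centralizer (P : Set Γ) : Subgroup Γ) => χ c :=
    isCharacter_comp (isCharacter_of_isIrr hχ) (Subgroup.subtype _)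
  obtain ⟨m, hm, hpm⟩ := h
  have inv : ∀ (h : normalizer (P : Set Γ)) c, φ (extConj N P h c) = φ c := fun h c => by
    obtain ⟨n, hn⟩ := IsPGroup.iff_card.1 hP
    obtain ⟨β, -, hβ⟩ := (S4444.result N P (fun s _ g hg => Normal.conj_mem inferInstance g hg s)
      (hn ▸ ((Nat.Prime.coprime_iff_not_dvd hM.1).2 hN).symm.pow_right n) p hM.1 hP _ rfl inf_le_left).1
      ⟨_, hθ⟩ fun s _ g g' e => by
        change χ g' = χ g
        rw [e, cχ]
    have e1 := hβ ⟨φ, hφ⟩ ⟨m, hm, hpm⟩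
    have e2 := hβ ⟨_, isIrrCharacter_comp_equiv hφ (extConj N P h)⟩ ⟨m, by
      rw [← hm, ← classInner_comp_equiv (extConj N P h) (fun c => χ c) φ]
      congr 1
      exact funext fun c => (cχ c h).symm, hpm⟩
    exact congrFun (congrArg Subtype.val (e2.trans e1.symm)) c
  obtain ⟨ρ', hρ'⟩ := core N P hN hP hab ρ hρ π hπ (fun h hh c c' e => by
      rw [tπ _ (hord _), tπ _ (hord _), ← inv ⟨h, hh⟩ c]
      exact congrArg (fun x => redC M (φ x)) (Subtype.ext e)) (by
      rw [Finset.sum_congr rfl fun c _ => by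
        rw [tπ _ (hord _), tρ c (by rw [orderOf_coe]; exact hord c)], ext_red hχC (isCharacter_of_isIrr hφ) hm]
      exact mul_ne_zero hC0 (mt (CharP.cast_eq_zero_iff _ p _).1 hpm))
  have le : N ⊓ centralizer (P : Set Γ) ≤ normalizer (P : Set Γ) :=
    inf_le_right.trans (centralizer_le_normalizer _)
  have ker : P.subgroupOf (normalizer (P : Set Γ)) ≤ ρ'.toHomUnits.ker := fun u hu => by
    have cm : ∀ A : Matrix (Fin d') (Fin d') (Res M), Commute A (ρ' u) := fun A => by
      have hA : A ∈ Submodule.span (Res M) (Set.range π) := hπ ▸ Submodule.mem_top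
      induction hA using Submodule.span_induction with
      | mem _ hx =>
        obtain ⟨c, rfl⟩ := hx
        rw [← hρ' c (inclusion le c) rfl]
        exact Commute.map (Subtype.ext (c.2.2 _ hu).symm) ρ'
      | zero => exact Commute.zero_left _
      | add _ _ _ _ h1 h2 => exact h1.add_left h2
      | smul _ _ _ h1 => exact h1.smul_left _
    obtain ⟨r, hr⟩ := Matrix.mem_range_scalar_of_commute_single (M := ρ' u) fun i j _ => cm _
    obtain ⟨n, hn⟩ := hP ⟨u, hu⟩
    have e1 : u ^ p ^ n = 1 := Subtype.ext (congrArg (fun x : P => (x : Γ)) hn)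
    have e2 : r ^ p ^ n = 1 := (Matrix.scalar_inj (n := Fin d')).1 (by
      rw [RingHom.map_pow, hr, ← map_pow, e1, map_one, map_one])
    have e3 : r = 1 := sub_eq_zero.1 (pow_eq_zero_iff (pow_ne_zero n hM.1.ne_zero) |>.1 (by
      rw [sub_pow_char_pow, e2, one_pow, sub_self]))
    exact Units.ext (by rw [MonoidHom.coe_toHomUnits, ← hr, e3, map_one, Units.val_one])
  let σ := (Units.coeHom _).comp (QuotientGroup.lift _ ρ'.toHomUnits ker)
  have hσ : ∀ x : normalizer (P : Set Γ), σ x = ρ' x := fun _ => rfl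
  obtain ⟨χ', hχ', h1, tσ⟩ := lift hM (K := normalizer (P : Set Γ) ⧸ P.subgroupOf (normalizer (P : Set Γ)))
    (fun k => hS (k.trans (relIndex_dvd_index_of_le le_normalizer))) d0 σ
    (eq_top_iff.2 (hπ ▸ Submodule.span_mono (by
      rintro _ ⟨c, rfl⟩
      exact ⟨(inclusion le c : normalizer (P : Set Γ)), (hσ _).trans (hρ' c _ rfl)⟩)))
  have hψ := isIrrCharacter_comp hχ' (QuotientGroup.mk' _) (QuotientGroup.mk'_surjective _)
  refine ⟨_, hψ, fun c h e => ?_⟩
  have hA := isCharacter_comp (isCharacter_of_isIrr hψ) (inclusion le)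
  obtain ⟨a, ha⟩ := exists_nat_classInner hA (isCharacter_of_isIrr hφ)
  have r1 := ext_red (M := M) hA (isCharacter_of_isIrr hφ) ha
  have r2 := ext_red (M := M) (isCharacter_of_isIrr hφ) (isCharacter_of_isIrr hφ) (m := 1)
    ((classInner_irr_self hφ).trans Nat.cast_one.symm)
  have a0 : a ≠ 0 := by
    rintro rfl
    rw [Finset.sum_congr rfl fun c _ => by
      rw [← tσ, QuotientGroup.mk'_apply, hσ, hρ' c _ rfl, tπ c (hord c)], r2] at r1
    simp only [Nat.cast_one, mul_one, Nat.cast_zero, mul_zero] at r1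
    exact hC0 r1
  have := H6.eq_of_constituent_of_degree_eq hA hφ (by rw [ha]; exact Nat.cast_ne_zero.2 a0)
    (by simp only [map_one]; rw [h1, hd'])
  rw [show h = inclusion le c from Subtype.ext e]
  exact congrFun this c

end Cfsg.Agent.DGN
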