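import Cfsg.Agent.DGN.Defs
import Cfsg.Agent.S4444

set_option autoImplicit false

namespace Cfsg.Agent.DGN

open Cfsg Cfsg.Agent.H34 Cfsg.Agent.H32 Subgroup
open scoped ComplexConjugate

variable {M : Ideal AlgInt} {p : ℕ} {G H : Type*} [Group G] [Finite G] [Group H] [Finite H]
  {N P : Subgroup G} [hNn : N.Normal] {ι : H →* G} [Fintype (N.comap ι)]

theorem glb_cop (hp : p.Prime) (hN : ¬ p ∣ Nat.card N) (hP : IsPGroup p P) :
    (Nat.card N).Coprime (Nat.card P) := by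
  have : Fact p.Prime := ⟨hp⟩
  obtain ⟨n, hn⟩ := hP.exists_card_eq
  exact hn ▸ (hp.coprime_iff_not_dvd.2 hN).symm.pow_right n

theorem glb_equiv (hp : p.Prime) (hN : ¬ p ∣ Nat.card N) (hP : IsPGroup p P)
    (hι : Function.Injective ι) (hr : ι.range = normalizer (P : Set G)) :
    ∃ e : N.comap ι ≃* (N ⊓ centralizer (P : Set G) : Subgroup G), ∀ c, (e c : G) = ι c := by
  have h : (N.comap ι).map ι = N ⊓ centralizer (P : Set G) := by
    rw [map_comap_eq, hr]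
    refine le_antisymm (fun n hn => ⟨hn.2, fun u hu => ?_⟩)
      fun n hn => ⟨centralizer_le_normalizer _ hn.2, hn.1⟩
    have h1 : n * u * n⁻¹ * u⁻¹ ∈ N ⊓ P :=
      ⟨by simpa [mul_assoc] using mul_mem hn.2 (hNn.conj_mem _ (inv_mem hn.2) u),
        P.mul_mem ((hn.1 u).1 hu) (P.inv_mem hu)⟩
    rw [inf_eq_bot_of_coprime (glb_cop hp hN hP), mem_bot] at h1
    exact (mul_inv_eq_iff_eq_mul.1 (mul_inv_eq_one.1 h1)).symm
  exact ⟨(equivMapOfInjective _ ι hι).trans (MulEquiv.subgroupCongr h), fun _ => rfl⟩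

omit [Finite G] [Finite H] hNn in
theorem glb_gl {C : Subgroup G} [Fintype C] (hC : C ≤ N) (e : N.comap ι ≃* C)
    (he : ∀ c, (e c : G) = ι c) (θ : N → ℂ) (β : IrrCharacter C) :
    Gl p (fun c : N.comap ι => θ ⟨ι c, c.2⟩) (irrComap e β) ↔
      ∃ m : ℕ, classInner (fun c : C => θ ⟨c, hC c.2⟩) (β : C → ℂ) = m ∧ ¬ p ∣ m := by
  rw [← H5.classInner_comp_equiv e]
  simp only [he]
  rfl

omit [Finite G] in
theorem glb_inv {θ : N → ℂ}
    (hθ : ∀ g ∈ P, ∀ n : N, θ ⟨g * n * g⁻¹, hNn.conj_mem (n : G) n.2 g⟩ = θ n) :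
    ∀ s ∈ P, ∀ g g' : N, (g' : G) = s * g * s⁻¹ → θ g' = θ g := fun s hs g g' h => by
  rw [← hθ s hs g]
  exact congrArg θ (Subtype.ext h)

theorem gl_exu (hp : p.Prime) (hN : ¬ p ∣ Nat.card N) (hP : IsPGroup p P)
    (hι : Function.Injective ι) (hr : ι.range = normalizer (P : Set G)) (θ : IrrCharacter N)
    (hθ : ∀ g ∈ P, ∀ n : N, (θ : N → ℂ) ⟨g * n * g⁻¹, hNn.conj_mem (n : G) n.2 g⟩ = (θ : N → ℂ) n) :
    ∃! φ : IrrCharacter (N.comap ι), Gl p (fun c : N.comap ι => (θ : N → ℂ) ⟨ι c, c.2⟩) φ := by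
  have := Fintype.ofFinite G
  have := Fintype.ofFinite N
  have := Fintype.ofFinite (N ⊓ centralizer (P : Set G) : Subgroup G)
  obtain ⟨e, he⟩ := glb_equiv hp hN hP hι hr
  obtain ⟨β, h1, h2⟩ := (S4444.result N P (fun s _ g hg => hNn.conj_mem g hg s) (glb_cop hp hN hP)
    p hp hP _ rfl inf_le_left).1 θ (glb_inv hθ)
  refine ⟨irrComap e β, (glb_gl inf_le_left e he _ β).2 h1, fun φ hφ => ?_⟩
  obtain ⟨β', rfl⟩ := (irrComap e).surjective φ
  rw [h2 β' ((glb_gl inf_le_left e he _ β').1 hφ)]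

theorem gl_inj (hp : p.Prime) (hN : ¬ p ∣ Nat.card N) (hP : IsPGroup p P)
    (hι : Function.Injective ι) (hr : ι.range = normalizer (P : Set G)) {θ θ' : IrrCharacter N}
    (hθ : ∀ g ∈ P, ∀ n : N, (θ : N → ℂ) ⟨g * n * g⁻¹, hNn.conj_mem (n : G) n.2 g⟩ = (θ : N → ℂ) n)
    (hθ' : ∀ g ∈ P, ∀ n : N,
      (θ' : N → ℂ) ⟨g * n * g⁻¹, hNn.conj_mem (n : G) n.2 g⟩ = (θ' : N → ℂ) n)
    {φ : IrrCharacter (N.comap ι)} (h : Gl p (fun c : N.comap ι => (θ : N → ℂ) ⟨ι c, c.2⟩) φ)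
    (h' : Gl p (fun c : N.comap ι => (θ' : N → ℂ) ⟨ι c, c.2⟩) φ) : θ = θ' := by
  have := Fintype.ofFinite G
  have := Fintype.ofFinite N
  have := Fintype.ofFinite (N ⊓ centralizer (P : Set G) : Subgroup G)
  obtain ⟨e, he⟩ := glb_equiv hp hN hP hι hr
  obtain ⟨β, rfl⟩ := (irrComap e).surjective φ
  obtain ⟨m, h1, h2⟩ := (glb_gl inf_le_left e he _ β).1 h
  obtain ⟨m', h3, h4⟩ := (glb_gl inf_le_left e he _ β).1 h'
  exact (S4444.result N P (fun s _ g hg => hNn.conj_mem g hg s) (glb_cop hp hN hP)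
    p hp hP _ rfl inf_le_left).2.2.1 θ θ' (glb_inv hθ) (glb_inv hθ') β m m' h1 h2 h3 h4

theorem gl_covers [Fintype N] (hM : IsPModular p M) (hN : ¬ p ∣ Nat.card N) (hP : IsPGroup p P)
    (hι : Function.Injective ι) (hr : ι.range = normalizer (P : Set G)) {θ : IrrCharacter N}
    (hθ : ∀ (g : G) (n : N), (θ : N → ℂ) ⟨g * n * g⁻¹, hNn.conj_mem (n : G) n.2 g⟩ = (θ : N → ℂ) n)
    {φ : IrrCharacter (N.comap ι)} (h : Gl p (fun c : N.comap ι => (θ : N → ℂ) ⟨ι c, c.2⟩) φ)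
    {B : Set (IrrCharacter G)} {c : Set (IrrCharacter H)} (hB : Covers N.subtype B {θ})
    (hc : IndBlk M ι c B) : Covers (N.comap ι).subtype c {φ} := by
  have := hM.2.1
  have := Fintype.ofFinite G
  have := Fintype.ofFinite H
  obtain ⟨χ, hχ, θ', rfl, ho⟩ := hB
  obtain ⟨ξ, hξ⟩ := IsPBlock.nonempty hc.1
  obtain ⟨β, hβ⟩ := exists_under (N.comap ι).subtype ξ
  have hi := inv_natCast_mem_locRing hM hN
  have ha : IsClassFunction G (push N.subtype (blockCoeff {θ'})) :=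
    (NEmb.ofNormal N).push_isClassFunction fun g n => by
      rw [NEmb.ofNormal_cj, blockCoeff_singleton, blockCoeff_singleton, hθ]
  have hv : ∀ n : N, push N.subtype (blockCoeff {θ'}) n = blockCoeff {θ'} n :=
    push_apply_of_injective N.subtype_injective _
  have h1 := hc.om_sub_om hξ hχ ha fun g => push_mem _ _ fun n _ => by
    rw [blockCoeff_singleton]
    exact mul_mem hi (mul_mem (irr_apply_mem θ' 1)
      (irr_apply_mem ⟨_, H5.isIrrCharacter_conj θ'.2⟩ n))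
  rw [om_eq_of_classInner_ne_zero N.subtype_injective ha (fun _ => push_of_not_mem_range _) χ.2 θ'.2
    ho, om_eq_of_classInner_ne_zero (subtype_injective _) (fun x y => by
      simpa only [map_mul, map_inv] using ha (ι x) (ι y)) (fun x hx => push_of_not_mem_range _
        (by simpa [mem_comap] using hx)) ξ.2 β.2 hβ] at h1
  simp only [coe_subtype, hv] at h1
  rw [om_blockCoeff_of_mem (Set.mem_singleton _)] at h1
  have hr' : IsCharacter _ fun c : N.comap ι => (θ' : N → ℂ) ⟨ι c, c.2⟩ :=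
    H5.isCharacter_comp (irr_isCharacter θ') (ι.subgroupComap N)
  obtain ⟨m, hm⟩ := H5.exists_nat_classInner hr' (irr_isCharacter β)
  refine ⟨ξ, hξ, β, (gl_exu hM.1 hN hP hι hr θ' fun g _ => hθ g).unique ⟨m, hm, fun hd => ?_⟩ h, hβ⟩
  obtain ⟨d, hd1⟩ := H5.exists_nat_degree (irr_isCharacter β)
  obtain ⟨k, hk⟩ := H5.degree_dvd_card β.2 hd1
  have d0 : (d : ℂ) ≠ 0 := hd1 ▸ H5.degree_ne_zero β.2
  have k0 : (k : ℂ) ≠ 0 := by
    rintro h0
    exact Nat.card_pos.ne' (by rw [hk, Nat.cast_eq_zero.1 h0, mul_zero])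
  rw [H5.classInner_comm_of_isCharacter hr' (irr_isCharacter β), classInner, hk] at hm
  refine not_mem_locMax_of_sub_one_mem h1 ?_
  have e : ∀ c : N.comap ι, push N.subtype (blockCoeff {θ'}) (ι c) = (Nat.card N : ℂ)⁻¹ *
      (θ' : N → ℂ) 1 * conj ((θ' : N → ℂ) ⟨ι c, c.2⟩) := fun c =>
    (hv ⟨ι c, c.2⟩).trans ((blockCoeff_singleton _ _).trans (mul_assoc _ _ _).symm)
  simp only [om_eq_div, e, mul_assoc, ← Finset.mul_sum, mul_comm (conj _)]
  rw [(inv_mul_eq_iff_eq_mul₀ (by simp [d0, k0])).1 hm, hd1, mul_div_assoc, mul_div_assoc,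
    show ((d * k : ℕ) * m : ℂ) / d = k * m by push_cast; field_simp]
  exact mul_mem_locMax_left hi (mul_mem_locMax_left (irr_apply_mem θ' 1)
    (mul_mem_locMax_left (natCast_mem _ k) ((natCast_mem_locMax_iff hM).2 hd)))

end Cfsg.Agent.DGN
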