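import Cfsg.Agent.DGN.InvB
import Cfsg.Agent.H34.Transport

/-! A perfect isometry from two covers with isomorphic reduced groups. -/

set_option autoImplicit false

namespace Cfsg.Agent.DGN

open Cfsg Cfsg.Agent.H34 Cfsg.Agent.H89 Subgroup

namespace InvDx

theorem exists_bij {G Γ Q : Type*} [Group G] [Finite G] [Group Γ] [Finite Γ] [Group Q]
    {N : Subgroup G} [N.Normal] [Fintype N] (θ : IrrCharacter N) (C : H30.Cover N (θ : N → ℂ) Γ)
    (e : Tri.Q C ≃* Q) {T : Set (IrrCharacter Q)}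
    (hT : ∀ β : IrrCharacter Q, β ∈ T ↔ TOver C fun y => (β : Q → ℂ) (e y)) :
    ∃ J : IrrCharacter Q → IrrCharacter G, Set.BijOn J T (overSet N.subtype {θ}) ∧
      ∀ β ∈ T, TR C (J β : G → ℂ) fun y => (β : Q → ℂ) (e y) := by
  have : Nonempty (IrrCharacter G) := ⟨⟨_, H5.isIrrCharacter_one⟩⟩
  choose! J hJ using fun (β : IrrCharacter Q) (h : β ∈ T) =>
    TOver.exists_TR θ.2 (β := ⟨_, H5.isIrrCharacter_comp_equiv β.2 e⟩) ((hT β).1 h)
  refine ⟨J, ⟨fun β hβ => ⟨θ, rfl, ?_⟩, fun β hβ β' hβ' h => ?_, ?_⟩, hJ⟩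
  · have : (fun n : N => (J β : G → ℂ) (N.subtype n)) = (β : Q → ℂ) (e 1) • (θ : N → ℂ) :=
      funext fun n => (hJ β hβ).apply_coe n
    rw [Over, this, H5.classInner_smul_left, H5.classInner_irr_self θ.2, mul_one, map_one]
    exact H5.degree_ne_zero β.2
  · have := (hJ β hβ).right_unique θ.2 (h ▸ hJ β' hβ')
    exact Subtype.ext (funext fun y => by simpa using congrFun this (e.symm y))
  · rintro χ ⟨θ', e0, h⟩
    rw [show θ' = θ from e0] at h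
    obtain ⟨β, hβ⟩ := exists_TR C θ.2 χ h
    let β' : IrrCharacter Q := ⟨_, H5.isIrrCharacter_comp_equiv β.2 e.symm⟩
    have e1 : (fun y => (β' : Q → ℂ) (e y)) = β := funext fun y => by simp [β']
    have m : β' ∈ T := (hT β').2 (by rw [e1]; exact hβ.tOver θ.2)
    exact ⟨β', m, Subtype.ext ((hJ β' m).left_unique ((congrArg (TR C χ) e1).mpr hβ))⟩

end InvDx

open InvDx in
theorem invD {M : Ideal AlgInt} {p : ℕ} {G H Γ Γ' : Type*} [Group G] [Finite G] [Group H]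
    [Finite H] [Group Γ] [Finite Γ] [Group Γ'] [Finite Γ'] (hM : IsPModular p M)
    {N : Subgroup G} [N.Normal] [Fintype N] {N' : Subgroup H} [N'.Normal] [Fintype N']
    (hN : ¬ p ∣ Nat.card N) (hN' : ¬ p ∣ Nat.card N') (θ : IrrCharacter N) (φ : IrrCharacter N')
    (C : H30.Cover N (θ : N → ℂ) Γ) (C' : H30.Cover N' (φ : N' → ℂ) Γ')
    (hZ : ¬ p ∣ Nat.card C.π.ker) (hZ' : ¬ p ∣ Nat.card C'.π.ker) (e : Tri.Q C' ≃* Tri.Q C)
    (he : ∀ β : Tri.Q C → ℂ, TOver C β ↔ TOver C' fun y => β (e y)) :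
    PI p M (overSet N'.subtype {φ}) (overSet N.subtype {θ}) := by
  have := hM.2.1
  obtain ⟨J, h1, h2⟩ := exists_bij θ C (MulEquiv.refl _)
    (T := {β : IrrCharacter (Tri.Q C) | TOver C β}) fun _ => Iff.rfl
  obtain ⟨J', h3, h4⟩ := exists_bij φ C' e (T := {β : IrrCharacter (Tri.Q C) | TOver C β}) fun β => he β
  have : Nonempty (IrrCharacter (Tri.Q C)) := ⟨⟨_, H5.isIrrCharacter_one⟩⟩
  refine ⟨J ∘ Function.invFunOn J' _, h1.comp (h3.symm h3.invOn_invFunOn.symm), fun x y => ?_⟩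
  obtain ⟨γ, rfl⟩ := C.π_surj x
  obtain ⟨γ', rfl⟩ := C'.π_surj y
  obtain ⟨k1, k2, k3⟩ := invB C hM hZ (Tri.q C γ) (e (Tri.q C' γ'))
  beta_reduce at k1 k2 k3 ⊢
  generalize hS : ∑ᶠ β ∈ {β : IrrCharacter (Tri.Q C) | TOver C β},
    (β : Tri.Q C → ℂ) (Tri.q C γ) * (β : Tri.Q C → ℂ) (e (Tri.q C' γ')) = S at k1 k2 k3
  have key : ∑ᶠ η ∈ overSet N'.subtype {φ}, ((J ∘ Function.invFunOn J'
      {β : IrrCharacter (Tri.Q C) | TOver C β}) η : G → ℂ) (C.π γ) * (η : H → ℂ) (C'.π γ') =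
      C.θ γ * C'.θ γ' * S := by
    rw [← hS, mul_finsum_mem' _ _ (Set.toFinite _)]
    refine (finsum_mem_eq_of_bijOn J' h3 fun β hβ => ?_).symm
    rw [Function.comp_apply, h3.invOn_invFunOn.1 hβ, h2 β hβ, h4 β hβ]
    simp only [MulEquiv.refl_apply]
    ring
  have t : C.θ γ * C'.θ γ' ∈ H32.locRing M :=
    mul_mem (H32.irr_mem_locRing ⟨_, C.θ_irr⟩ γ) (H32.irr_mem_locRing ⟨_, C'.θ_irr⟩ γ')
  have d : ∀ (a b : ℂ) (c : ℕ), 0 < c → MemLocalRing M (S / c) → MemLocalRing M (c / b) →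
      a ∈ H32.locRing M → MemLocalRing M (a * S / b) := fun a b c hc q1 q2 q3 => by
    have c0 : (c : ℂ) ≠ 0 := Nat.cast_ne_zero.2 hc.ne'
    rw [show a * S / b = a * (S / c) * (c / b) by field_simp]
    exact H32.mem_locRing.1 (mul_mem (mul_mem q3 (H32.mem_locRing.2 q1)) (H32.mem_locRing.2 q2))
  rw [key]
  refine ⟨d _ _ _ Nat.card_pos k1 (invC_cent C hM hN hZ γ) t,
    d _ _ _ Nat.card_pos k2 (by rw [card_centralizer_map]; exact invC_cent C' hM hN' hZ' γ') t,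
    k3.imp (fun h => ?_) fun h => by rw [h, mul_zero]⟩
  rw [← invC_reg C hM.1 hN hZ, ← invC_reg C' hM.1 hN' hZ', h, IsPRegular, IsPRegular, e.orderOf_eq]

end Cfsg.Agent.DGN
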