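import Cfsg.Agent.DGN.InvA
import Cfsg.Agent.DGN.InvD

/-!
The perfect isometry between the characters above an invariant character of a normal
`p'`-subgroup and those above its Glauberman correspondent.
-/

set_option autoImplicit false

namespace Cfsg.Agent.DGN

open Cfsg Cfsg.Agent.H34 Subgroup

theorem inv {M : Ideal AlgInt} {p : ℕ} {G H : Type*} [Group G] [Finite G] [Group H] [Finite H]
    (hM : IsPModular p M) (N P : Subgroup G) [hNn : N.Normal] [Fintype N]
    (hN : ¬ p ∣ Nat.card N) (hP : IsPGroup p P) (hab : ∀ x ∈ P, ∀ y ∈ P, x * y = y * x)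
    (hS : ¬ p ∣ P.index) (hG : N ⊔ normalizer (P : Set G) = ⊤) {ι : H →* G}
    (hι : Function.Injective ι) (hr : ι.range = normalizer (P : Set G)) (θ : IrrCharacter N)
    (hθ : ∀ (g : G) (n : N), (θ : N → ℂ) ⟨g * n * g⁻¹, hNn.conj_mem (n : G) n.2 g⟩ = (θ : N → ℂ) n)
    [Fintype (N.comap ι)] (φ : IrrCharacter (N.comap ι))
    (h : Gl p (fun c : N.comap ι => (θ : N → ℂ) ⟨ι c, c.2⟩) φ) :
    PI p M (overSet (N.comap ι).subtype {φ}) (overSet N.subtype {θ}) := by
  obtain ⟨Γ, _, _, C, hZ⟩ := exists_pcover hM.1 N hN θ.2 hθ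
  obtain ⟨C', e, hZ', he⟩ := invA hM N P hN hP hab hS hG hι hr θ C hZ φ h
  refine invD hM hN (fun h' => hN (h'.trans ?_)) θ φ C C' hZ hZ' e he
  exact card_comap_dvd_of_injective N ι hι

end Cfsg.Agent.DGN
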