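import Cfsg.Agent.DGN.Ext
import Cfsg.Agent.DGN.Glb
import Cfsg.Agent.H34.FongHt

set_option autoImplicit false

namespace Cfsg.Agent.DGN

open Cfsg Cfsg.Agent.H34 Cfsg.Agent.H89 Subgroup
open scoped ComplexConjugate

theorem invA_inner {Z K C : Type*} [Finite Z] [Nonempty Z] [Group K] [Fintype K] [Group C]
    [Fintype C] (f : Z × C → K) (hf : Function.Bijective f) {l : Z → ℂ}
    (hl : ∀ z, l z * conj (l z) = 1) {a b : K → ℂ} {a' b' : C → ℂ}
    (ha : ∀ z c, a (f (z, c)) = l z * a' c) (hb : ∀ z c, b (f (z, c)) = l z * b' c) :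
    classInner a b = classInner a' b' := by
  have := Fintype.ofFinite Z
  have h0 : (Nat.card Z : ℂ) ≠ 0 := by exact_mod_cast Nat.card_pos.ne'
  rw [classInner, classInner, ← hf.sum_comp, Fintype.sum_prod_type,
    ← Nat.card_eq_of_bijective f hf, Nat.card_prod, Finset.sum_congr rfl fun z _ =>
      Finset.sum_congr rfl fun c _ => show _ = a' c * conj (b' c) by
        rw [ha, hb, map_mul, mul_mul_mul_comm, hl, one_mul],
    Finset.sum_const, Finset.card_univ, ← Nat.card_eq_fintype_card, nsmul_eq_mul]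
  push_cast
  field_simp

theorem invA_cen {K : Type*} [Group K] [Fintype K] {a b : K → ℂ} (hb : IsIrrCharacter K b)
    (h : classInner a b ≠ 0) {z : K} (hz : z ∈ center K) {l : ℂ} (ha : ∀ g, a (z * g) = l * a g)
    (g : K) : b (z * g) = l * b g := by
  obtain ⟨ω, h1, -, h2⟩ := H5.exists_apply_mul_eq_of_norm_eq (H5.isCharacter_of_isIrr hb)
    (H5.norm_apply_of_mem_center hb hz)
  have h3 : classInner a b = l * conj ω * classInner a b := by
    conv_lhs => rw [classInner, ← Equiv.sum_comp (Equiv.mulLeft z)]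
    simp only [Equiv.coe_mulLeft, ha, h2, map_mul]
    rw [classInner, Finset.mul_sum, Finset.mul_sum, Finset.mul_sum]
    exact Finset.sum_congr rfl fun _ _ => by ring
  have h4 : ω * conj ω = 1 := by rw [Complex.mul_conj, Complex.normSq_eq_norm_sq, h1]; simp
  have h5 : l * conj ω = 1 := (mul_eq_right₀ h).1 h3.symm
  rw [h2, show ω = l by linear_combination l * h4 - ω * h5]

theorem invA_lift {p : ℕ} {G Γ : Type*} [Group G] [Finite G] [Group Γ] [Finite Γ] (hp : p.Prime)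
    {P : Subgroup G} (hP : IsPGroup p P) (hab : ∀ x ∈ P, ∀ y ∈ P, x * y = y * x)
    (hS : ¬ p ∣ P.index) (π : Γ →* G) (hπ : Function.Surjective π) (hc : π.ker ≤ center Γ)
    (hZ : ¬ p ∣ Nat.card π.ker) : ∃ S : Subgroup Γ, IsPGroup p S ∧ ¬ p ∣ S.index ∧
      normalizer (S : Set Γ) = (normalizer (P : Set G)).comap π ∧
      centralizer (S : Set Γ) = (centralizer (P : Set G)).comap π ∧ ∀ x ∈ S, π x ∈ P := by
  have : Fact p.Prime := ⟨hp⟩
  obtain ⟨k, hk⟩ := hP.exists_card_eq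
  have hq : (p ^ k).Coprime (Nat.card π.ker) := (hp.coprime_iff_not_dvd.2 hZ).pow_left k
  have pw : ∀ u ∈ P, u ^ p ^ k = 1 := fun u hu =>
    congrArg Subtype.val (hk ▸ pow_card_eq_one' (x := (⟨u, hu⟩ : P)))
  have cm : ∀ {a b}, π a ∈ P → π a * π b = π b * π a → a * b = b * a := fun ha h =>
    comm_of_central_coprime π hc hq (pw _ ha) h
  let S : Subgroup Γ :=
    { carrier := {γ | π γ ∈ P ∧ γ ^ p ^ k = 1}
      one_mem' := by simp
      mul_mem' := fun {a b} ha hb => ⟨map_mul π a b ▸ mul_mem ha.1 hb.1, by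
        rw [Commute.mul_pow (cm ha.1 (hab _ ha.1 _ hb.1)), ha.2, hb.2, one_mul]⟩
      inv_mem' := fun {a} ha => ⟨map_inv π a ▸ inv_mem ha.1, by rw [inv_pow, ha.2, inv_one]⟩ }
  have hm : S.map π = P := by
    refine le_antisymm (map_le_iff_le_comap.2 fun _ h => h.1) fun u hu => ?_
    obtain ⟨γ, rfl⟩ := hπ u
    obtain ⟨a, h1, h2⟩ := Nat.chineseRemainder hq 1 0
    have h3 : π (γ ^ a) = π γ := by
      rw [map_pow, pow_eq_pow_mod _ (pw _ hu), h1, ← pow_eq_pow_mod _ (pw _ hu), pow_one]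
    obtain ⟨b, rfl⟩ := Nat.modEq_zero_iff_dvd.1 h2
    refine ⟨_, ⟨h3 ▸ hu, ?_⟩, h3⟩
    have h4 := congrArg Subtype.val (pow_card_eq_one' (x := (⟨γ ^ p ^ k, by
      rw [MonoidHom.mem_ker, map_pow, pw _ hu]⟩ : π.ker)))
    rw [pow_right_comm, pow_mul, show (γ ^ p ^ k) ^ _ = 1 from h4, one_pow]
  refine ⟨S, fun x => ⟨k, Subtype.ext x.2.2⟩, fun h => ?_, le_antisymm (fun γ hγ =>
    hm ▸ le_normalizer_map π (mem_map_of_mem π hγ)) fun γ hγ x => ?_,
    le_antisymm (fun γ hγ u hu => ?_) fun γ hγ x hx => cm hx.1 (hγ _ hx.1), fun _ h => h.1⟩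
  · obtain ⟨t, ht⟩ := hm ▸ card_map_dvd S π
    have h1 := S.card_mul_index
    have h2 := π.ker.card_mul_index
    rw [index_ker, MonoidHom.range_eq_top.2 hπ, card_top, ← P.card_mul_index, ← h1, ht] at h2
    have h3 : Nat.card π.ker * P.index = t * S.index :=
      Nat.eq_of_mul_eq_mul_left (Nat.card_pos (α := P)) (by linarith)
    exact (hp.dvd_mul.1 (h3 ▸ h.mul_left t)).elim hZ hS
  · change π x ∈ P ∧ _ ↔ π _ ∈ P ∧ _
    rw [map_mul, map_mul, map_inv, conj_pow, conj_eq_one_iff]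
    exact and_congr_left' (hγ _)
  · obtain ⟨x, hx, rfl⟩ := hm.ge hu
    rw [← map_mul, hγ x hx, map_mul]

theorem invA_ext {M : Ideal AlgInt} {p : ℕ} {G H Γ : Type*} [Group G] [Finite G] [Group H]
    [Finite H] [Group Γ] [Finite Γ] (hM : IsPModular p M) (N P : Subgroup G) [hNn : N.Normal]
    (hN : ¬ p ∣ Nat.card N) (hP : IsPGroup p P) (hab : ∀ x ∈ P, ∀ y ∈ P, x * y = y * x)
    (hS : ¬ p ∣ P.index) {ι : H →* G}
    (hι : Function.Injective ι) (hr : ι.range = normalizer (P : Set G)) (θ : IrrCharacter N)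
    (C : H30.Cover N (θ : N → ℂ) Γ) (hZ : ¬ p ∣ Nat.card C.π.ker)
    [Fintype (N.comap ι)] (φ : IrrCharacter (N.comap ι))
    (h : Gl p (fun c : N.comap ι => (θ : N → ℂ) ⟨ι c, c.2⟩) φ) :
    ∃ ψ, IsIrrCharacter (ι.range.comap C.π) ψ ∧ ∀ (z : C.π.ker) (c : N.comap ι)
      (γ : ι.range.comap C.π), (γ : Γ) = z * C.ν ⟨ι c, c.2⟩ →
        ψ γ = C.lam z * (φ : N.comap ι → ℂ) c := by
  have hp := hM.1
  obtain ⟨S, h1, h2, h3, h4, h5⟩ := invA_lift hp hP hab hS C.π C.π_surj C.ker_le hZ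
  obtain ⟨e, he⟩ := glb_equiv hp hN hP hι hr
  have := Fintype.ofFinite Γ
  have := Fintype.ofFinite (N.comap C.π)
  have := Fintype.ofFinite (N.comap C.π ⊓ centralizer (S : Set Γ) : Subgroup Γ)
  have hN' : ¬ p ∣ Nat.card (N.comap C.π) := by
    have k1 := (N.comap C.π).card_mul_index
    have k2 := C.π.ker.card_mul_index
    rw [index_ker, MonoidHom.range_eq_top.2 C.π_surj, card_top, ← N.card_mul_index, ← k1,
      index_comap_of_surjective _ C.π_surj, ← mul_assoc] at k2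
    rw [← Nat.eq_of_mul_eq_mul_right (Nat.pos_of_ne_zero index_ne_zero_of_finite) k2]
    exact fun k => (hp.dvd_mul.1 k).elim hZ hN
  have hc := H5.isCharacter_of_isIrr C.θ_irr
  have hθ : IsIrrCharacter (N.comap C.π) fun n => C.θ n :=
    H30.isIrr_of_comp (H5.isCharacter_comp hc (N.comap C.π).subtype)
      (C.ν.codRestrict _ fun n => by rw [mem_comap, C.π_ν]; exact n.2)
      (by simpa [C.θ_ν] using θ.2)
  obtain ⟨φ', hφ', -⟩ := (S4444.result (N.comap C.π) S (fun s _ g hg =>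
    Normal.conj_mem inferInstance g hg s) (glb_cop hp hN' h1) p hp h1 _ rfl inf_le_left).1 ⟨_, hθ⟩
      fun s _ g g' e => by
        change C.θ g' = C.θ g
        rw [e]; exact H5.isClassFunction_of_isIrr C.θ_irr _ _
  obtain ⟨ψ, hψ, hψ'⟩ := ext hM (N.comap C.π) S hN' h1 (fun x hx y hy =>
    h4.ge (mem_comap.2 fun u hu => hab u hu _ (h5 y hy)) x hx) h2 C.θ_irr hθ φ'.2 hφ'
  obtain ⟨m, hm, hm'⟩ := hφ'
  let ν : N.comap ι →* (N.comap C.π ⊓ centralizer (S : Set Γ) : Subgroup Γ) :=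
    (C.ν.comp (ι.subgroupComap N)).codRestrict _ fun c => by
      rw [h4, ← comap_inf, mem_comap, MonoidHom.comp_apply, C.π_ν]
      have := (e c).2
      rw [he] at this
      exact this
  let j : C.π.ker → (N.comap C.π ⊓ centralizer (S : Set Γ) : Subgroup Γ) := fun z => ⟨z, by
    rw [h4, ← comap_inf, mem_comap, z.2]; exact one_mem _⟩
  have k1 : ∀ z g, (φ' : _ → ℂ) (j z * g) = C.lam z * (φ' : _ → ℂ) g := fun z =>
    invA_cen φ'.2 (hm.trans_ne (Nat.cast_ne_zero.2 fun e => hm' (e ▸ dvd_zero p)))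
      (mem_center_iff.2 fun g => Subtype.ext (mem_center_iff.1 (C.ker_le z.2) g))
      fun g => C.θ_mul z g
  have hb : Function.Bijective fun x : C.π.ker × N.comap ι => j x.1 * ν x.2 := by
    refine ⟨fun x y hxy => ?_, fun γ => ?_⟩
    · have k2 := congrArg Subtype.val hxy
      have k3 : ι x.2 = ι y.2 := by
        have := congrArg C.π k2
        change C.π (x.1 * C.ν _) = C.π (y.1 * C.ν _) at this
        rw [map_mul, map_mul, x.1.2, y.1.2, C.π_ν, C.π_ν, one_mul, one_mul] at this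
        exact this
      have k4 : x.2 = y.2 := Subtype.ext (hι k3)
      simp only [k4, mul_left_inj] at hxy
      exact Prod.ext (Subtype.ext (congrArg Subtype.val hxy :)) k4
    · obtain ⟨z, n, hz⟩ := C.mem_comap_iff.1 γ.2.1
      have k2 : C.π γ = n := by rw [hz, map_mul, z.2, one_mul, C.π_ν]
      obtain ⟨c, hc⟩ := e.surjective ⟨n, n.2, k2 ▸ h4.le γ.2.2⟩
      refine ⟨(z, c), Subtype.ext (hz.trans ?_).symm⟩
      exact congrArg (fun n => (z : Γ) * C.ν n) (Subtype.ext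
        ((congrArg Subtype.val hc).symm.trans (he c)))
  have hl : ∀ z, (C.lam z : ℂ) * conj (C.lam z : ℂ) = 1 := fun z => by
    rw [Complex.mul_conj, Complex.normSq_eq_norm_sq, Complex.norm_eq_one_of_pow_eq_one
      (by rw [← Units.val_pow_eq_pow_val, C.lam_pow, Units.val_one]) (index_ne_zero_of_finite (H := N))]
    simp
  have k5 : IsIrrCharacter _ fun c => (φ' : _ → ℂ) (ν c) := H5.isIrr_of_classInner_self_eq_one
    (H5.isCharacter_comp (irr_isCharacter φ') ν) ((invA_inner _ hb hl (fun z c => k1 z _)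
      fun z c => k1 z _).symm.trans (H5.classInner_irr_self φ'.2))
  have k6 := (gl_exu hp hN hP hι hr θ fun g _ n => by
    obtain ⟨γ, rfl⟩ := C.π_surj g
    rw [← C.θ_ν, ← C.θ_ν, ← C.ν_conj]
    exact H5.isClassFunction_of_isIrr C.θ_irr _ _).unique h (y₂ := ⟨_, k5⟩)
      ⟨m, (invA_inner _ hb hl (fun z c => (C.θ_mul z _).trans (congrArg _ (C.θ_ν _)))
        fun z c => k1 z _).symm.trans hm, hm'⟩
  refine ⟨_, H5.isIrrCharacter_comp_equiv hψ (MulEquiv.subgroupCongr (by rw [h3, hr])),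
    fun z c γ hγ => ?_⟩
  rw [hψ' (j z * ν c) _ hγ, k1, k6]

theorem invA_cover {M : Ideal AlgInt} {p : ℕ} {G H Γ : Type*} [Group G] [Finite G] [Group H] [Finite H]
    [Group Γ] [Finite Γ] (hM : IsPModular p M) (N P : Subgroup G) [N.Normal]
    (hN : ¬ p ∣ Nat.card N) (hP : IsPGroup p P) (hab : ∀ x ∈ P, ∀ y ∈ P, x * y = y * x)
    (hS : ¬ p ∣ P.index) (hG : N ⊔ normalizer (P : Set G) = ⊤) {ι : H →* G}
    (hι : Function.Injective ι) (hr : ι.range = normalizer (P : Set G)) (θ : IrrCharacter N)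
    (C : H30.Cover N (θ : N → ℂ) Γ) (hZ : ¬ p ∣ Nat.card C.π.ker)
    [Fintype (N.comap ι)] (φ : IrrCharacter (N.comap ι))
    (h : Gl p (fun c : N.comap ι => (θ : N → ℂ) ⟨ι c, c.2⟩) φ) :
    ∃ C' : H30.Cover (N.comap ι) (φ : N.comap ι → ℂ) (ι.range.comap C.π),
      (∀ γ, ι (C'.π γ) = C.π γ) ∧ (∀ c, (C'.ν c : Γ) = C.ν ⟨ι c, c.2⟩) ∧
        ∀ (z : C'.π.ker) (w : C.π.ker), (z : Γ) = w → C'.lam z = C.lam w := by
  obtain ⟨ψ, hψ, hψ'⟩ := invA_ext hM N P hN hP hab hS hι hr θ C hZ φ h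
  let π' : ι.range.comap C.π →* H :=
    (MonoidHom.ofInjective hι).symm.toMonoidHom.comp (C.π.subgroupComap ι.range)
  have hπ : ∀ γ, ι (π' γ) = C.π γ := fun γ => MonoidHom.apply_ofInjective_symm hι _
  let ν' : N.comap ι →* ι.range.comap C.π :=
    (C.ν.comp (ι.subgroupComap N)).codRestrict _ fun c => ⟨c, (C.π_ν ⟨ι c, c.2⟩).symm⟩
  let j : π'.ker →* C.π.ker := ((Subgroup.subtype _).comp π'.ker.subtype).codRestrict _ fun z =>
    (hπ z).symm.trans (by rw [z.2, map_one])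
  have ji : Function.Injective j := fun a b e => Subtype.ext (Subtype.ext (congrArg Subtype.val e :))
  have cz : ∀ z : π'.ker, (z : ι.range.comap C.π) ∈ center _ := fun z =>
    mem_center_iff.2 fun g => Subtype.ext (mem_center_iff.1 (C.ker_le (j z).2) g)
  have := Fintype.ofFinite (ι.range.comap C.π)
  have hi : N.index = (N.comap ι).index := by
    rw [index_comap, hr, ← relIndex_sup_left, hG, relIndex_top_right]
  refine ⟨
    { π := π', ν := ν', θ := ψ, lam := C.lam.comp j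
      π_surj := fun x => by
        obtain ⟨γ, hγ⟩ := C.π_surj (ι x)
        exact ⟨⟨γ, x, hγ.symm⟩, hι ((hπ _).trans hγ)⟩
      ker_le := fun z hz => cz ⟨z, hz⟩
      π_ν := fun c => hι ((hπ _).trans (C.π_ν _))
      ν_conj := fun γ c => Subtype.ext ((C.ν_conj γ _).trans (congrArg C.ν (Subtype.ext (by
        change _ = ι (_ * _ * _)
        rw [map_mul, map_mul, map_inv, hπ]; rfl))))
      θ_irr := hψ
      θ_ν := fun c => by simpa using hψ' 1 c (ν' c) (one_mul _).symm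
      lam_inj := C.lam_inj.comp ji
      θ_mul := fun z γ => by
        obtain ⟨ω, -, -, h2⟩ := H5.exists_apply_mul_eq_of_norm_eq (H5.isCharacter_of_isIrr hψ)
          (H5.norm_apply_of_mem_center hψ (cz z))
        have h3 := h2 1
        have h4 : (1 : Γ) = C.ν ⟨ι (1 : N.comap ι), (1 : N.comap ι).2⟩ :=
          (map_one (C.ν.comp (ι.subgroupComap N))).symm
        rw [hψ' (j z) 1 _ (by rw [← h4]; rfl), hψ' 1 1 1 (by rw [← h4]; simp), map_one,
          Units.val_one, one_mul, mul_left_inj' (H5.degree_ne_zero φ.2)] at h3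
        rw [h2, ← h3]; rfl
      lam_pow := fun z => hi ▸ C.lam_pow _ }, hπ, fun _ => rfl, fun z w e =>
        congrArg C.lam (Subtype.ext e)⟩

theorem invA {M : Ideal AlgInt} {p : ℕ} {G H Γ : Type*} [Group G] [Finite G] [Group H] [Finite H]
    [Group Γ] [Finite Γ] (hM : IsPModular p M) (N P : Subgroup G) [N.Normal]
    (hN : ¬ p ∣ Nat.card N) (hP : IsPGroup p P) (hab : ∀ x ∈ P, ∀ y ∈ P, x * y = y * x)
    (hS : ¬ p ∣ P.index) (hG : N ⊔ normalizer (P : Set G) = ⊤) {ι : H →* G}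
    (hι : Function.Injective ι) (hr : ι.range = normalizer (P : Set G)) (θ : IrrCharacter N)
    (C : H30.Cover N (θ : N → ℂ) Γ) (hZ : ¬ p ∣ Nat.card C.π.ker)
    [Fintype (N.comap ι)] (φ : IrrCharacter (N.comap ι))
    (h : Gl p (fun c : N.comap ι => (θ : N → ℂ) ⟨ι c, c.2⟩) φ) :
    ∃ (C' : H30.Cover (N.comap ι) (φ : N.comap ι → ℂ) (ι.range.comap C.π))
      (e : Tri.Q C' ≃* Tri.Q C), ¬ p ∣ Nat.card C'.π.ker ∧
        ∀ β : Tri.Q C → ℂ, TOver C β ↔ TOver C' fun y => β (e y) := by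
  obtain ⟨C', hπ, hν, hl⟩ := invA_cover hM N P hN hP hab hS hG hι hr θ C hZ φ h
  let j : C'.π.ker →* C.π.ker :=
    ((Subgroup.subtype _).comp C'.π.ker.subtype).codRestrict _ fun z =>
      (hπ z).symm.trans (by rw [z.2, map_one])
  have ji : Function.Injective j := fun a b e => Subtype.ext (Subtype.ext (congrArg Subtype.val e :))
  have js : Function.Surjective j := fun z =>
    ⟨⟨⟨z, 1, by rw [map_one, z.2]⟩, hι ((hπ _).trans (z.2.trans (map_one ι).symm))⟩, rfl⟩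
  let f : Tri.Q C' →* Tri.Q C := QuotientGroup.map _ _ (Subgroup.subtype _) (by
    rintro _ ⟨c, rfl⟩
    exact ⟨_, (hν c).symm⟩)
  have hf : Function.Bijective f := by
    refine ⟨(injective_iff_map_eq_one f).2 fun y hy => ?_, fun y => ?_⟩
    · obtain ⟨γ, rfl⟩ := Tri.q_surj C' y
      obtain ⟨n, hn⟩ := (Tri.q_eq_one_iff C (γ := γ)).1 hy
      have k : ι (C'.π γ) = n := by rw [hπ, ← hn, C.π_ν]
      exact (Tri.q_eq_one_iff C').2 ⟨⟨C'.π γ, show ι _ ∈ N from k ▸ n.2⟩,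
        Subtype.ext ((hν _).trans ((congrArg C.ν (Subtype.ext k)).trans hn))⟩
    · obtain ⟨γ, rfl⟩ := Tri.q_surj C y
      obtain ⟨n, hn, x, hx, k⟩ := mem_sup_of_normal_left.1 (hG.ge (mem_top (C.π γ)))
      refine ⟨Tri.q C' ⟨(C.ν ⟨n, hn⟩)⁻¹ * γ, ?_⟩, ?_⟩
      · rw [mem_comap, map_mul, map_inv, C.π_ν, ← k, hr]
        simpa using hx
      · change Tri.q C _ = _
        simp [Tri.q_ν]
  refine ⟨C', MulEquiv.ofBijective f hf, fun k => hZ (k.trans (card_dvd_of_injective j ji)),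
    fun β => ⟨fun k z y => ?_, fun k z y => ?_⟩⟩
  · beta_reduce
    rw [map_mul, hl z (j z) rfl]
    exact k (j z) _
  · obtain ⟨z, rfl⟩ := js z
    obtain ⟨y, rfl⟩ := hf.2 y
    have := k z y
    beta_reduce at this
    rw [map_mul, hl z (j z) rfl] at this
    exact this

end Cfsg.Agent.DGN
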