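import Cfsg.Agent.DGN.Defs
import Cfsg.Agent.H34.FongHt

set_option autoImplicit false

namespace Cfsg.Agent.DGN

open Cfsg Cfsg.Agent.H34 Cfsg.Agent.H89 Subgroup

theorem invB_cen {Q : Type*} [Group Q] [Finite Q] {χ : Q → ℂ} (hχ : IsIrrCharacter Q χ) {z : Q}
    (hz : z ∈ center Q) (y : Q) : χ (z * y) = χ z / χ 1 * χ y := by
  have := Fintype.ofFinite Q
  have h := H5.sum_irr_mul_conj_eq hχ y z
  simp only [mem_center_iff.1 hz, mul_inv_cancel_right, Finset.sum_const, Finset.card_univ,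
    nsmul_eq_mul, ← Nat.card_eq_fintype_card] at h
  refine mul_left_cancel₀ (H6.card_ne_zero_complex Q) (h.trans ?_)
  ring

theorem invB_dvd {A B : Type*} [Group A] [Finite A] [Group B] {p : ℕ} (hp : p.Prime) (f : A →* B)
    (hf : ¬ p ∣ Nat.card f.ker) (a : A) : IsPRegular p (f a) ↔ IsPRegular p a := by
  refine ⟨fun h e => ?_, fun h e => h (e.trans (orderOf_map_dvd f a))⟩
  have : a ^ orderOf (f a) ∈ f.ker := by rw [MonoidHom.mem_ker, map_pow, pow_orderOf_eq_one]
  refine ((Nat.Prime.dvd_mul hp).1 (e.trans (orderOf_dvd_of_pow_eq_one ?_))).elim h hf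
  rw [pow_mul]
  exact congrArg Subtype.val (pow_card_eq_one' (x := (⟨_, this⟩ : f.ker)))

variable {M : Ideal AlgInt} {p : ℕ} {G Γ : Type*} [Group G] [Finite G] [Group Γ] [Finite Γ]
  {N : Subgroup G} [N.Normal] {ϑ : N → ℂ} (C : H30.Cover N ϑ Γ)

omit [Finite G] [Finite Γ] in
theorem invB_q (z : C.π.ker) : Tri.q C z ∈ center (Tri.Q C) :=
  Tri.star_le_center C (Tri.q_ker_mem C z)

omit [Finite G] in
open Classical in
theorem invB_sum [Fintype C.π.ker] (a b : Tri.Q C) :
    ∑ᶠ β ∈ {β : IrrCharacter (Tri.Q C) | TOver C β}, (β : Tri.Q C → ℂ) a * (β : Tri.Q C → ℂ) b =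
      (Nat.card C.π.ker : ℂ)⁻¹ * ∑ z : C.π.ker, C.lam z * if IsConj (Tri.q C z * a) b⁻¹ then
        (Nat.card (centralizer ({a} : Set (Tri.Q C))) : ℂ) else 0 := by
  have e1 : ∀ z : C.π.ker, centralizer {Tri.q C z * a} = centralizer ({a} : Set (Tri.Q C)) :=
    fun z => Subgroup.ext fun x => by
      rw [mem_centralizer_singleton_iff, mem_centralizer_singleton_iff, ← mul_assoc,
        mem_center_iff.1 (invB_q C z), mul_assoc, mul_assoc, mul_right_inj]
  have e2 := fun z : C.π.ker => H5.sum_irr_mul_conj (Tri.q C z * a) b⁻¹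
  simp only [e1] at e2
  simp only [← e2, Finset.mul_sum]
  rw [Finset.sum_comm, finsum_mem_def, finsum_eq_sum_of_fintype]
  refine Finset.sum_congr rfl fun β _ => ?_
  simp only [← H5.isIrr_apply_inv β.2, inv_inv, ← mul_assoc (C.lam _ : ℂ), ← Finset.mul_sum,
    ← Finset.sum_mul]
  by_cases h : TOver C β
  · rw [Set.indicator_of_mem (show β ∈ {β : IrrCharacter _ | TOver C β} from h),
      Finset.sum_congr rfl fun z _ => h z a, Finset.sum_const, Finset.card_univ, nsmul_eq_mul,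
      ← Nat.card_eq_fintype_card, mul_assoc, inv_mul_cancel_left₀ (H6.card_ne_zero_complex _)]
  · rw [Set.indicator_of_notMem (show β ∉ {β : IrrCharacter _ | TOver C β} from h)]
    obtain ⟨z, y, h1⟩ : ∃ z y, (C.lam z : ℂ) * β.1 (Tri.q C z * y) ≠ β.1 y := by
      simpa only [TOver, not_forall] using h
    have h2 : (C.lam z : ℂ) * (β.1 (Tri.q C z) / β.1 1) - 1 ≠ 0 := fun e => h1 (by
      rw [invB_cen β.2 (invB_q C z), ← mul_assoc, sub_eq_zero.1 e, one_mul])
    rw [(mul_eq_zero.1 (?_ : _ * ∑ w : C.π.ker, (C.lam w : ℂ) * β.1 (Tri.q C w * a) = 0)).resolve_left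
      h2, zero_mul, mul_zero]
    rw [sub_mul, one_mul, sub_eq_zero, Finset.mul_sum, ← Equiv.sum_comp (Equiv.mulLeft z)
      fun w : C.π.ker => (C.lam w : ℂ) * β.1 (Tri.q C w * a)]
    refine Finset.sum_congr rfl fun w _ => ?_
    rw [Equiv.coe_mulLeft, map_mul, coe_mul, map_mul, mul_assoc (Tri.q C z),
      invB_cen β.2 (invB_q C z) (_ * a), Units.val_mul]
    ring

theorem invB (hM : IsPModular p M) (hZ : ¬ p ∣ Nat.card C.π.ker) :
    IsPerfectFun p M fun a b : Tri.Q C =>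
      ∑ᶠ β ∈ {β : IrrCharacter (Tri.Q C) | TOver C β}, (β : Tri.Q C → ℂ) a * (β : Tri.Q C → ℂ) b := by
  classical
  have := hM.2.1
  have := Fintype.ofFinite C.π.ker
  have key : ∀ a b : Tri.Q C, (∑ᶠ β ∈ {β : IrrCharacter (Tri.Q C) | TOver C β},
      (β : Tri.Q C → ℂ) a * (β : Tri.Q C → ℂ) b) / Nat.card (centralizer ({a} : Set (Tri.Q C))) ∈
        H32.locRing M := fun a b => by
    rw [invB_sum, mul_div_assoc, Finset.sum_div]
    refine mul_mem (H32.inv_natCast_mem_locRing hM hZ) (sum_mem fun z _ => ?_)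
    rw [mul_div_assoc]
    refine mul_mem (H32.char_mem_locRing (H5.isCharacter_monoidHom C.lam) z) ?_
    split_ifs
    · rw [div_self (H6.card_ne_zero_complex _)]; exact one_mem _
    · rw [zero_div]; exact zero_mem _
  refine fun a b => ⟨key a b, by simpa only [mul_comm, H32.mem_locRing] using key b a,
    or_iff_not_imp_left.2 fun h => ?_⟩
  simp only [invB_sum]
  rw [Finset.sum_eq_zero fun z _ => ?_, mul_zero]
  rw [if_neg, mul_zero]
  intro h1
  obtain ⟨g, hg⟩ := isConj_iff.1 h1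
  have h2 : ∀ (w : C.π.ker) (x : Tri.Q C), IsPRegular p x → IsPRegular p (Tri.q C w * x) :=
    fun w x hx e => ((Nat.Prime.dvd_mul hM.1).1 (e.trans
      (Commute.orderOf_mul_dvd_mul_orderOf (mem_center_iff.1 (invB_q C w) x).symm))).elim
        (fun e => hZ (e.trans ((orderOf_map_dvd ((Tri.q C).comp C.π.ker.subtype) w).trans
          (orderOf_dvd_natCard w)))) hx
  have h3 : IsPRegular p b ↔ IsPRegular p (Tri.q C z * a) := by
    rw [IsPRegular, IsPRegular, ← orderOf_inv, ← hg, ← MulAut.conj_apply, MulEquiv.orderOf_eq]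
  exact h ⟨fun ha => h3.2 (h2 z a ha), fun hb => by simpa using h2 z⁻¹ _ (h3.1 hb)⟩

omit [Finite Γ] [Finite G] in
theorem invB_ker (hN : ¬ p ∣ Nat.card N) : ¬ p ∣ Nat.card (Tri.q C).ker := fun h =>
  hN (h.trans (by rw [Tri.q, QuotientGroup.ker_mk']; exact card_range_dvd _))

theorem invC_reg (hp : p.Prime) (hN : ¬ p ∣ Nat.card N) (hZ : ¬ p ∣ Nat.card C.π.ker) (γ : Γ) :
    IsPRegular p (Tri.q C γ) ↔ IsPRegular p (C.π γ) :=
  (invB_dvd hp _ (invB_ker C hN) γ).trans (invB_dvd hp _ hZ γ).symm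

theorem invC_cent (hM : IsPModular p M) (hN : ¬ p ∣ Nat.card N) (hZ : ¬ p ∣ Nat.card C.π.ker)
    (γ : Γ) : MemLocalRing M ((Nat.card (centralizer ({Tri.q C γ} : Set (Tri.Q C))) : ℂ) /
      (Nat.card (centralizer ({C.π γ} : Set G)) : ℂ)) := by
  have := hM.2.1
  have := Fact.mk hM.1
  obtain ⟨D⟩ : Nonempty (Sylow p (centralizer ({C.π γ} : Set G))) := inferInstance
  obtain ⟨k, hk⟩ := D.isPGroup'.exists_card_eq
  let X := ((D : Subgroup _).map (centralizer ({C.π γ} : Set G)).subtype).comap C.π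
  have h1 : p ^ k ∣ Nat.card X := by
    have := card_map_dvd X C.π
    rwa [map_comap_eq_self_of_surjective C.π_surj, card_map_of_injective (subtype_injective _),
      hk] at this
  have h2 : X.map (Tri.q C) ≤ centralizer {Tri.q C γ} := by
    rintro _ ⟨x, ⟨d, hd, e⟩, rfl⟩
    rw [mem_centralizer_singleton_iff, ← map_mul, ← map_mul]
    refine congrArg _ (comm_of_central_coprime C.π C.ker_le (q := p ^ k)
      (((Nat.Prime.coprime_iff_not_dvd hM.1).2 hZ).pow_left k) ?_ ?_)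
    · rw [← e, ← map_pow, ← hk, show d ^ Nat.card D = 1 from
        congrArg Subtype.val (pow_card_eq_one' (x := (⟨d, hd⟩ : D))), map_one]
    · exact e ▸ mem_centralizer_singleton_iff.1 d.2
  have h3 : p ^ k ∣ Nat.card (X.map (Tri.q C)) := by
    rw [← relIndex_ker, relIndex]
    rw [← ((Tri.q C).ker.subgroupOf X).card_mul_index] at h1
    refine Nat.Coprime.dvd_of_dvd_mul_left (((Nat.Prime.coprime_iff_not_dvd hM.1).2 fun e =>
      invB_ker C hN (e.trans (card_comap_dvd_of_injective _ _ (subtype_injective _)))).pow_left k) h1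
  obtain ⟨n, hn⟩ := h3.trans (card_dvd_of_le h2)
  rw [hn, ← (D : Subgroup _).card_mul_index, hk, Nat.cast_mul, Nat.cast_mul,
    mul_div_mul_left _ _ (Nat.cast_ne_zero.2 (pow_ne_zero k hM.1.ne_zero)), div_eq_mul_inv]
  exact mul_mem (natCast_mem (H32.locRing M) n) (H32.inv_natCast_mem_locRing hM D.not_dvd_index)

end Cfsg.Agent.DGN
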