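import Cfsg.Agent.DGN.Defs
import Cfsg.Prelude.Def_BlockRank

set_option autoImplicit false
set_option linter.unusedSectionVars false

namespace Cfsg.Agent.DGN

open Cfsg Cfsg.Agent.H34 Cfsg.Agent.H32

variable {M : Ideal AlgInt} [hMm : M.IsMaximal] {p : ℕ} {G H : Type*} [Group G] [Group H]
  {c : Set (IrrCharacter H)} {B : Set (IrrCharacter G)}

omit hMm in
theorem PI.rank_le [Finite G] [Finite H] (h : PI p M c B) : blockRank p B ≤ blockRank p c := by
  classical
  have := Fintype.ofFinite H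
  obtain ⟨I, hI, hμ⟩ := h
  set μ := fun (x : G) (y : H) => ∑ᶠ η ∈ c, (I η : G → ℂ) x * (η : H → ℂ) y with hμd
  let Φ : (H → ℂ) →ₗ[ℂ] (G → ℂ) :=
    ⟨⟨fun f x => (Nat.card H : ℂ)⁻¹ * ∑ y, f y⁻¹ * μ x y, fun f g => funext fun x => by
      simp only [Pi.add_apply, add_mul, Finset.sum_add_distrib, mul_add]⟩,
      fun a f => funext fun x => by
        simp only [Pi.smul_apply, smul_eq_mul, RingHom.id_apply, mul_assoc, ← Finset.mul_sum]
        ring⟩
  have key : ∀ η ∈ c, Φ (pRegularPart p η) = pRegularPart p (I η) := fun η hη => funext fun x => by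
    change (Nat.card H : ℂ)⁻¹ * ∑ y, pRegularPart p η y⁻¹ * μ x y = _
    have hi : ∀ y : H, IsPRegular p y⁻¹ ↔ IsPRegular p y := fun y => by
      simp only [IsPRegular, orderOf_inv]
    by_cases hx : IsPRegular p x
    · have e : ∀ y, pRegularPart p η y⁻¹ * μ x y = (η : H → ℂ) y⁻¹ * μ x y := fun y => by
        rcases (hμ x y).2.2 with h1 | h1
        · simp only [pRegularPart, hi, h1.1 hx, if_true]
        · rw [h1, mul_zero, mul_zero]
      simp only [e]
      simp only [pRegularPart, hx, if_true, hμd,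
        finsum_mem_eq_finite_toFinset_sum _ (Set.toFinite c), Finset.mul_sum]
      rw [Finset.sum_comm, Finset.sum_eq_single η (fun ξ _ hξ => ?_)
        fun h => (h ((Set.Finite.mem_toFinset _).2 hη)).elim]
      · have := H5.sum_irr_inv_mul_irr_mul η.2 η.2 1
        simp only [mul_one, if_true, mul_div_cancel_right₀ _ (H5.degree_ne_zero η.2)] at this
        simp only [mul_left_comm _ ((I η : G → ℂ) x), ← Finset.mul_sum]
        rw [this, inv_mul_cancel₀ (H6.card_ne_zero_complex H), mul_one]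
      · have := H5.sum_irr_inv_mul_irr_mul ξ.2 η.2 1
        simp only [mul_one, if_neg fun e => hξ (Subtype.ext e)] at this
        simp only [mul_left_comm _ ((I ξ : G → ℂ) x), ← Finset.mul_sum]
        rw [this, mul_zero, mul_zero]
    · rw [Finset.sum_eq_zero fun y _ => ?_, mul_zero, pRegularPart, if_neg hx]
      rcases (hμ x y).2.2 with h1 | h1
      · simp only [pRegularPart, hi, mt h1.2 hx, if_false, zero_mul]
      · rw [h1, mul_zero]
  refine (Submodule.finrank_mono (Submodule.span_le.2 ?_)).trans (Submodule.finrank_map_le Φ _)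
  rintro _ ⟨χ, hχ, rfl⟩
  obtain ⟨η, hη, rfl⟩ := hI.surjOn hχ
  exact ⟨_, Submodule.subset_span ⟨η, hη, rfl⟩, key η hη⟩

theorem PI.symm [Finite G] [Finite H] (h : PI p M c B) : PI p M B c := by
  obtain ⟨I, hI, hμ⟩ := h
  have : Nonempty (IrrCharacter H) := ⟨⟨_, H5.isIrrCharacter_monoidHom 1⟩⟩
  refine ⟨Function.invFunOn I c, hI.symm hI.invOn_invFunOn.symm, fun y x => ?_⟩
  have e := finsum_mem_eq_of_bijOn (f := fun η => (I η : G → ℂ) x * (η : H → ℂ) y)
    (g := fun χ : IrrCharacter G => (Function.invFunOn I c χ).1 y * (χ : G → ℂ) x) I hI fun η hη => by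
      simp only [hI.invOn_invFunOn.1 hη, mul_comm]
  obtain ⟨h1, h2, h3⟩ := hμ x y
  simp only [e] at h1 h2 h3
  exact ⟨h2, h1, h3.imp_left Iff.symm⟩

theorem PI.result [Finite G] [Finite H] (h : PI p M c B) :
    Nat.card c = Nat.card B ∧ blockRank p c = blockRank p B ∧
      ∃ (I : IrrCharacter H → IrrCharacter G) (ε : IrrCharacter H → ℤ),
        IsPerfectIsometry p M c B I ε := by
  refine ⟨?_, le_antisymm h.symm.rank_le h.rank_le, ?_⟩
  · obtain ⟨I, hI, -⟩ := h
    exact Nat.card_congr (hI.equiv I)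
  · obtain ⟨I, hI, hμ⟩ := h
    refine ⟨I, fun _ => 1, hI, fun _ _ => Or.inl rfl, ?_⟩
    unfold signedBijectionKernel
    simpa only [Int.cast_one, one_mul] using hμ

omit hMm in
theorem perf_cl [Fintype G] {f : G → ℂ} (hf : IsClassFunction G f) (x : G)
    [DecidablePred (IsConj x)] : (Nat.card G : ℂ)⁻¹ * ∑ g ∈ Finset.univ.filter (IsConj x), f g =
      f x / Nat.card (Subgroup.centralizer ({x} : Set G)) := by
  rw [Finset.sum_congr rfl fun g hg =>
    (H5.isClassFunction_apply_of_isConj hf (Finset.mem_filter.1 hg).2).symm, Finset.sum_const,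
    H5.card_filter_isConj, nsmul_eq_mul, ← (Subgroup.centralizer ({x} : Set G)).card_mul_index,
    Nat.cast_mul]
  have h1 := H6.card_ne_zero_complex (Subgroup.centralizer ({x} : Set G))
  have h2 : ((Subgroup.centralizer ({x} : Set G)).index : ℂ) ≠ 0 :=
    Nat.cast_ne_zero.2 Subgroup.index_ne_zero_of_finite
  field_simp

theorem perf_avg [Fintype G] {f : G → ℂ} (hf : IsClassFunction G f)
    (h : ∀ x, f x / Nat.card (Subgroup.centralizer ({x} : Set G)) ∈ locRing M) :
    (Nat.card G : ℂ)⁻¹ * ∑ g, f g ∈ locRing M := by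
  classical
  have := Fintype.ofFinite (ConjClasses G)
  rw [← Finset.sum_fiberwise Finset.univ ConjClasses.mk, Finset.mul_sum]
  refine sum_mem fun K _ => ?_
  obtain ⟨x, rfl⟩ := ConjClasses.mk_surjective K
  rw [Finset.filter_congr (q := IsConj x) fun g _ => by
    rw [ConjClasses.mk_eq_mk_iff_isConj, isConj_comm], perf_cl hf]
  exact h x

theorem PI.ind [Fintype G] [Finite H] {T : Subgroup G} {B' : Set (IrrCharacter T)}
    (h : PI p M c B') (h1 : ∀ ψ ∈ B', ∃ χ : IrrCharacter G, (χ : G → ℂ) = indFun T (ψ : T → ℂ))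
    (h2 : ∀ ψ ∈ B', ∀ ψ' ∈ B', indFun T (ψ : T → ℂ) = indFun T (ψ' : T → ℂ) → ψ = ψ') :
    PI p M c (indSet T B') := by
  classical
  have := Fintype.ofFinite T
  obtain ⟨I, hI, hμ⟩ := h
  have : Nonempty (IrrCharacter G) := ⟨⟨_, H5.isIrrCharacter_monoidHom 1⟩⟩
  choose! J hJ using h1
  refine ⟨fun η => J (I η), ⟨fun η hη => ⟨_, hI.mapsTo hη, hJ _ (hI.mapsTo hη)⟩,
    fun η hη ξ hξ e => hI.injOn hη hξ (h2 _ (hI.mapsTo hη) _ (hI.mapsTo hξ) (by
      rw [← hJ _ (hI.mapsTo hη), ← hJ _ (hI.mapsTo hξ)]; exact congrArg Subtype.val e)), ?_⟩,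
    fun x y => ?_⟩
  · rintro χ ⟨ψ, hψ, e⟩
    obtain ⟨η, hη, rfl⟩ := hI.surjOn hψ
    exact ⟨η, hη, Subtype.ext ((hJ _ hψ).trans e.symm)⟩
  obtain ⟨f, hf⟩ : ∃ f : T → ℂ, f = fun t => ∑ᶠ η ∈ c, (I η : T → ℂ) t * (η : H → ℂ) y := ⟨_, rfl⟩
  have hc : IsClassFunction T f := fun a b => by
    simp only [hf, H5.isClassFunction_of_isIrr (I _).2 a b]
  have e : ∑ᶠ η ∈ c, (J (I η) : G → ℂ) x * (η : H → ℂ) y = indFun T f x := by
    rw [show f = ∑ η ∈ (Set.toFinite c).toFinset, (η : H → ℂ) y • (I η : T → ℂ) from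
      funext fun t => by
        simp only [hf, finsum_mem_eq_finite_toFinset_sum _ (Set.toFinite c), Finset.sum_apply,
          Pi.smul_apply, smul_eq_mul, mul_comm],
      H6.indFun_sum, finsum_mem_eq_finite_toFinset_sum _ (Set.toFinite c), Finset.sum_apply]
    refine Finset.sum_congr rfl fun η hη => ?_
    rw [H6.indFun_smul, hJ _ (hI.mapsTo ((Set.Finite.mem_toFinset _).1 hη)), mul_comm]; rfl
  have hμ' := fun t => hμ t y
  simp only [← congrFun hf _] at hμ'
  simp only [e]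
  refine ⟨?_, ?_, or_iff_not_imp_left.2 fun h3 => H6.indFun_eq_zero_of_forall T f fun t ht =>
    (hμ' t).2.2.resolve_left fun h4 => h3 ?_⟩
  · have h3 := H6.sum_indFun_mul T f (f := fun g => if IsConj x g then 1 else 0) fun a b =>
      if_congr ⟨fun h => h.trans (isConj_iff.2 ⟨b, rfl⟩).symm, fun h => h.trans
        (isConj_iff.2 ⟨b, rfl⟩)⟩ rfl rfl
    simp only [mul_ite, mul_one, mul_zero] at h3
    rw [← Finset.sum_filter, perf_cl (H6.indFun_isClassFunction T f)] at h3
    rw [h3]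
    refine perf_avg (fun a b => ?_) fun t => ?_
    · rw [hc a b]
      exact if_congr ⟨fun h => h.trans (isConj_iff.2 ⟨(b : G), rfl⟩).symm, fun h => h.trans
        (isConj_iff.2 ⟨(b : G), rfl⟩)⟩ rfl rfl
    · split_ifs
      exacts [(hμ' t).1, by rw [zero_div]; exact zero_mem _]
  · rw [div_eq_inv_mul, ← smul_eq_mul, ← Pi.smul_apply, ← H6.indFun_smul]
    exact indFun_mem (locRing M) T (fun a b => by simp only [Pi.smul_apply, hc a b])
      (fun t => by rw [Pi.smul_apply, smul_eq_mul, ← div_eq_inv_mul]; exact (hμ' t).2.1) x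
  · obtain ⟨g, hg⟩ := isConj_iff.1 ht
    rw [← h4, IsPRegular, IsPRegular, ← Subgroup.orderOf_coe, ← hg]
    exact (not_congr (by rw [← MulAut.conj_apply, MulEquiv.orderOf_eq])).symm

end Cfsg.Agent.DGN
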