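import Cfsg.Agent.DGN.MainA
import Cfsg.Agent.DGN.Inv
import Cfsg.Agent.DGN.Perf

/-!
Blocks of `p`-solvable groups with abelian defect groups are perfectly isometric to their Brauer
correspondents: Fong's two reductions.
-/

set_option autoImplicit false

namespace Cfsg.Agent.DGN

open Cfsg Cfsg.Agent.H34 Cfsg.Agent.H87 Subgroup

variable {M : Ideal AlgInt} [hMm : M.IsMaximal] {p : ℕ} [hp : Fact p.Prime] {G H : Type*} [Group G]
  [Group H] {P : Subgroup G} {ι : H →* G} {B : Set (IrrCharacter G)} {c : Set (IrrCharacter H)}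

theorem sup_normalizer_eq_top [Finite G] {N : Subgroup G} [N.Normal] (hQ : H22.IsCharP p (G ⧸ N))
    (hS : SylIn p P ⊤) (hab : ∀ x ∈ P, ∀ y ∈ P, x * y = y * x) :
    N ⊔ normalizer (P : Set G) = ⊤ := by
  have h1 := SylIn.map hS (QuotientGroup.mk' N)
  rw [map_top_of_surjective _ (QuotientGroup.mk'_surjective N)] at h1
  have h2 : pCore p (G ⧸ N) ≤ P.map (QuotientGroup.mk' N) :=
    h1.normal_le H22.isPGroup_pCore le_top (normalizer_eq_top _).ge
  have h3 : P.map (QuotientGroup.mk' N) = pCore p (G ⧸ N) := by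
    refine le_antisymm (le_trans ?_ hQ) h2
    rintro _ ⟨x, hx, rfl⟩ y hy
    obtain ⟨z, hz, rfl⟩ := h2 hy
    rw [← map_mul, ← map_mul, hab z hz x hx]
  have h4 : (pCore p (G ⧸ N)).comap (QuotientGroup.mk' N) = P ⊔ N := by
    rw [← h3, comap_map_eq, QuotientGroup.ker_mk']
  have h5 : (P ⊔ N).Normal := h4 ▸ inferInstance
  rw [eq_top_iff]
  intro x _
  obtain ⟨n, hn, h⟩ := (hS.of_le le_sup_left le_top : SylIn p P (P ⊔ N)).frattini
    (normalizer_eq_top _).ge (mem_top x)
  rw [← mul_inv_cancel_left n x]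
  exact mul_mem ((sup_le (le_normalizer.trans le_sup_right) le_sup_left : P ⊔ N ≤ _) hn)
    (mem_sup_right h)

theorem inv_iff {N : Subgroup G} [hN : N.Normal] {θ : IrrCharacter N} {g : G} :
    (NEmb.ofNormal N).act g θ = θ ↔
      ∀ n : N, (θ : N → ℂ) ⟨g * n * g⁻¹, hN.conj_mem (n : G) n.2 g⟩ = (θ : N → ℂ) n := by
  rw [Subtype.ext_iff, funext_iff]
  simp only [NEmb.act_apply, NEmb.ofNormal_cj]

theorem pi_of_inv [Finite G] [Finite H] (hM : IsPModular p M) {N : Subgroup G} [N.Normal]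
    [Fintype N] (hN : ¬ p ∣ Nat.card N) (hQ : H22.IsCharP p (G ⧸ N)) {θ : IrrCharacter N}
    (hi : (NEmb.ofNormal N).Inv {θ}) (hc : Covers N.subtype B {θ}) (hP : IsDefectGroup p M B P)
    (hab : ∀ x ∈ P, ∀ y ∈ P, x * y = y * x) (hι : Function.Injective ι)
    (hr : ι.range = normalizer (P : Set G)) (h : IndBlk M ι c B) : PI p M c B := by
  have := Fintype.ofFinite G
  have := Fintype.ofFinite H
  have := Fintype.ofFinite (N.comap ι)
  have hθ := fun g => inv_iff.mp (hi g θ rfl)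
  have hPp := IsDefectGroup.isPGroup hP
  have hC : ¬ p ∣ Nat.card (N.comap ι) := fun h' =>
    hN (h'.trans (card_comap_dvd_of_injective N ι hι))
  have ho := isPBlock_overSet_of_isCharP hM hN hi (QuotientGroup.mk'_surjective N)
    (by rw [QuotientGroup.ker_mk']; exact (range_subtype _).symm) hQ
  have hB := Covers.eq_overSet (E := NEmb.ofNormal N) hM (isPBlock_singleton hM hN θ) h.2.1 ho hc
  have hS := sylIn_top_of_isDefectGroup hM h.2.1 (by rw [hB, full_defect_overSet hM hN hi ho]) hP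
  have hG := sup_normalizer_eq_top hQ hS hab
  obtain ⟨φ, hφ, hu⟩ := gl_exu hp.out hN hPp hι hr θ fun g _ => hθ g
  have hi' : (NEmb.ofNormal (N.comap ι)).Inv {φ} := by
    rintro x _ rfl
    refine hu _ ?_
    have := gl_act hφ x
    rwa [hi (ι x) θ rfl] at this
  have ho' := isPBlock_overSet_of_isCharP hM hC hi' (π := (QuotientGroup.mk' N).comp ι)
    (by
      rw [← MonoidHom.range_eq_top, MonoidHom.range_comp, hr, eq_top_iff,
        ← map_top_of_surjective _ (QuotientGroup.mk'_surjective N), ← hG, Subgroup.map_sup,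
        QuotientGroup.map_mk'_self, bot_sup_eq])
    (by rw [← MonoidHom.comap_ker, QuotientGroup.ker_mk']; exact (range_subtype _).symm) hQ
  rw [hB, Covers.eq_overSet (E := NEmb.ofNormal (N.comap ι)) hM (isPBlock_singleton hM hC φ) h.1 ho'
    (gl_covers hM hN hPp hι hr hθ hφ hc h)]
  exact inv hM N P hN hPp hab (by simpa using hS.not_dvd_relIndex) hG hι hr θ hθ φ hφ

theorem PI.fong [Fintype G] [Finite H] {N : Type*} [Group N] [Fintype N] {E : NEmb N G}
    {T : Subgroup G} [Fintype T] {b : Set (IrrCharacter N)} {B' : Set (IrrCharacter T)}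
    (hM : IsPModular p M) (hT : E.Stab T b) (hb : IsPBlock M b)
    (hc : Covers (E.restrict T hT.le).ι B' b) (hi : IndBlk M T.subtype B' B) (h : PI p M c B') :
    PI p M c B := by
  have hS := hc.subset_overSet hM hi.1 (IsPBlock.closed hb)
  rw [hT.eq_indSet hM hb hc hi]
  refine h.ind (fun ψ hψ => ?_) fun ψ hψ ψ' hψ' => hT.ind_injective (hS hψ) (hS hψ')
  obtain ⟨χ, -, e⟩ := hT.exists_ind (hS hψ)
  exact ⟨χ, e.symm⟩

theorem pi_of_stab [Finite G] [Finite H] (hM : IsPModular p M) {N T : Subgroup G} [hNn : N.Normal]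
    [Fintype N] [Fintype T] (hN : ¬ p ∣ Nat.card N) {θ : IrrCharacter N}
    (hT : (NEmb.ofNormal N).Stab T {θ}) {B' : Set (IrrCharacter T)}
    (hc : Covers ((NEmb.ofNormal N).restrict T hT.le).ι B' {θ}) (hi : IndBlk M T.subtype B' B)
    {D : Subgroup T} (hD : IsDefectGroup p M B' D) (hι : Function.Injective ι)
    (hr : ι.range = normalizer (D.map T.subtype : Set G)) (h : IndBlk M ι c B)
    (IH : ∀ κ : T.comap ι →* T, Function.Injective κ → κ.range = normalizer (D : Set T) →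
      ∀ c', IndBlk M κ c' B' → PI p M c' B') : PI p M c B := by
  have := Fintype.ofFinite G
  have := Fintype.ofFinite H
  have := Fintype.ofFinite (N.comap ι)
  have := Fintype.ofFinite (T.comap ι)
  have hb := isPBlock_singleton hM hN θ
  have hP := hT.isDefectGroup_map hM hb hc hi hD
  have hPp := IsDefectGroup.isPGroup hP
  have hC : ¬ p ∣ Nat.card (N.comap ι) := fun h' =>
    hN (h'.trans (card_comap_dvd_of_injective N ι hι))
  have hκ : Function.Injective (ι.subgroupComap T) := fun x y e =>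
    Subtype.ext (hι (congrArg Subtype.val e))
  have hκr : (ι.subgroupComap T).range = normalizer (D : Set T) := by
    have e : D = (D.map T.subtype).subgroupOf T :=
      (comap_map_eq_self_of_injective T.subtype_injective D).symm
    rw [e, ← subgroupOf_normalizer_eq (map_subtype_le D), ← hr]
    ext t
    exact ⟨fun ⟨x, hx⟩ => ⟨x, congrArg Subtype.val hx⟩,
      fun ⟨x, hx⟩ => ⟨⟨x, show ι x ∈ T from hx ▸ t.2⟩, Subtype.ext hx⟩⟩
  obtain ⟨c', hc'⟩ := exists_corr hM hκ hκr hi.1 hD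
  have hθ := fun g (hg : g ∈ D.map T.subtype) => inv_iff.mp (hT.inv g (map_subtype_le D hg) θ rfl)
  obtain ⟨φ, hφ, hu⟩ := gl_exu hp.out hN hPp hι hr θ hθ
  have hb' := isPBlock_singleton hM hC φ
  have hT' : (NEmb.ofNormal (N.comap ι)).Stab (T.comap ι) {φ} := by
    refine ⟨fun n => hT.le ⟨_, n.2⟩, ?_, ?_⟩
    · rintro x hx _ rfl
      refine hu _ ?_
      have := gl_act hφ x
      rwa [hT.inv (ι x) hx θ rfl] at this
    · rintro x _ rfl hx
      have h1 := gl_act hφ x
      rw [hx] at h1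
      refine hT.stab (ι x) θ rfl (gl_inj hp.out hN hPp hι hr (fun g hg => inv_iff.mp ?_) hθ h1 hφ)
      have h2 : ι x * g * (ι x)⁻¹ ∈ D.map T.subtype :=
        (mem_normalizer_iff.mp (hr ▸ ⟨x, rfl⟩ : ι x ∈ normalizer (D.map T.subtype : Set G)) g).mp hg
      rw [← NEmb.act_mul, show ι x * g = ι x * g * (ι x)⁻¹ * ι x by group, NEmb.act_mul,
        inv_iff.mpr (hθ _ h2)]
  have hcov : Covers ((NEmb.ofNormal (N.comap ι)).restrict _ hT'.le).ι c' {φ} :=
    covers_of_gl _ _ (ι.subgroupComap N) (fun _ => rfl)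
      (fun x ⟨n, hn⟩ => ⟨⟨x, show ι x ∈ N from
        (show (n : G) = ι x from congrArg Subtype.val hn) ▸ n.2⟩, rfl⟩) hM hN
      hT.inv_restrict hu hc hc'
  have h1 := hT'.indBlk_indSet hM hb' hc'.1 hcov
  obtain ⟨B₁, h2⟩ := exists_indBlk hM hι hPp (hr ▸ le_normalizer)
    (hr ▸ centralizer_le_normalizer _) hr.le h1.2.1
  have h3 : IndBlk M (ι.comp (T.comap ι).subtype) c' B := hc'.trans_iff.mp hi
  rw [(h1.trans_iff.mp h2).unique h3] at h2
  rw [← corr_unique hM hι hr hP h2 h] at *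
  exact PI.symm (PI.fong hM hT' hb' hcov h1
    (PI.symm (PI.fong hM hT hb hc hi (IH _ hκ hκr c' hc'))))

universe u v

theorem main_aux (hM : IsPModular p M) (n : ℕ) :
    ∀ (G : Type u) [Group G] [Finite G], Nat.card G = n → IsPSolvable p G →
      ∀ (B : Set (IrrCharacter G)) (P : Subgroup G), IsDefectGroup p M B P →
        (∀ x ∈ P, ∀ y ∈ P, x * y = y * x) → ∀ (H : Type v) [Group H] [Finite H] (ι : H →* G),
        Function.Injective ι → ι.range = normalizer (P : Set G) →
        ∀ c, IndBlk M ι c B → PI p M c B := by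
  induction n using Nat.strong_induction_on with
  | _ n IH =>
  intro G _ _ hn hG B P hP hab H _ _ ι hι hr c h
  have := Fintype.ofFinite G
  have := Fintype.ofFinite (pPrimeCore p G)
  have hN : ¬ p ∣ Nat.card (pPrimeCore p G) := H33.not_dvd_card_pPrimeCore hp.out
  let E := NEmb.ofNormal (pPrimeCore p G)
  obtain ⟨χ, hχ⟩ := IsPBlock.nonempty h.2.1
  obtain ⟨θ, hθ⟩ := exists_under E.ι χ
  have hb := isPBlock_singleton hM hN θ
  have hc : Covers E.ι B {θ} := ⟨χ, hχ, θ, rfl, hθ⟩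
  have hT := NEmb.stab_stabOf (E := E) hb
  by_cases hTop : E.stabOf {θ} = ⊤
  · exact pi_of_inv hM hN (H22.IsPSolvable.isCharP_quotient hG)
      (fun g => hT.inv g (hTop ▸ mem_top g)) hc hP hab hι hr h
  set T := E.stabOf {θ}
  have := Fintype.ofFinite T
  obtain ⟨B', hc', hi⟩ := hT.exists_indBlk hM hb h.2.1 hc
  obtain ⟨D, hD⟩ := exists_defectGroup hM hi.1
  obtain ⟨x, hx⟩ := defectGroup_conj hM h.2.1 hP (hT.isDefectGroup_map hM hb hc' hi hD)
  refine pi_of_stab (ι := (MulAut.conj x).toMonoidHom.comp ι) hM hN hT hc' hi hD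
    ((MulAut.conj x).injective.comp hι) ?_
    ((indBlk_conj_iff x (MulEquiv.refl H) (fun _ => rfl) c B).mp h) fun κ => IH _ ?_ T rfl
      (H22.IsPSolvable.subgroup hG T) B' D hD (fun a ha b hb => Subtype.ext ?_) _ κ
  · rw [MonoidHom.range_comp, hr, hx]
    exact map_equiv_normalizer_eq P (MulAut.conj x)
  · rw [← hn, ← T.card_mul_index]
    exact lt_mul_of_one_lt_right Nat.card_pos (one_lt_index_of_ne_top hTop)
  · obtain ⟨a', ha', e1⟩ := hx.le (mem_map_of_mem T.subtype ha)
    obtain ⟨b', hb', e2⟩ := hx.le (mem_map_of_mem T.subtype hb)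
    rw [coe_subtype] at e1 e2
    rw [coe_mul, coe_mul, ← e1, ← e2, ← map_mul, ← map_mul, hab a' ha' b' hb']

end Cfsg.Agent.DGN
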