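import Cfsg.Agent.DGN.Glb
import Cfsg.Agent.H32.FirstMain
import Cfsg.Agent.H34.FongP

/-!
Brauer correspondents along an embedding of the normalizer, and the compatibility of the Glauberman
correspondence with conjugation and with block induction.
-/

set_option autoImplicit false

namespace Cfsg.Agent.DGN

open Cfsg Cfsg.Agent.H34 Subgroup
open scoped ComplexConjugate

variable {M : Ideal AlgInt} [hMm : M.IsMaximal] {p : ℕ} [hp : Fact p.Prime] {G H : Type*} [Group G]
  [Finite G] [Group H] [Finite H] {P : Subgroup G} {ι : H →* G} {B : Set (IrrCharacter G)}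
  {c c' : Set (IrrCharacter H)}

omit [Finite G] [Finite H] in
theorem exists_equiv_No (hι : Function.Injective ι) (hr : ι.range = normalizer (P : Set G)) :
    ∃ e : H ≃* normalizer (P : Set G), ∀ k, (normalizer (P : Set G)).subtype (e k) = ι k :=
  ⟨(MonoidHom.ofInjective hι).trans (MulEquiv.subgroupCongr hr), fun _ => rfl⟩

omit [Finite H] hp in
theorem exists_corr (hM : IsPModular p M) (hι : Function.Injective ι)
    (hr : ι.range = normalizer (P : Set G)) (hB : IsPBlock M B) (hP : IsDefectGroup p M B P) :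
    ∃ c, IndBlk M ι c B := by
  obtain ⟨e, he⟩ := exists_equiv_No hι hr
  obtain ⟨b, hb, -⟩ := H32.exists_brauer_correspondent hM hB hP
  exact ⟨_, (indBlk_comp_equiv_iff e he b B).mpr hb⟩

omit [Finite H] hp in
theorem corr_unique (hM : IsPModular p M) (hι : Function.Injective ι)
    (hr : ι.range = normalizer (P : Set G)) (hP : IsDefectGroup p M B P) (h : IndBlk M ι c B)
    (h' : IndBlk M ι c' B) : c = c' := by
  obtain ⟨e, he⟩ := exists_equiv_No hι hr
  have he' : ∀ k, ι (e.symm k) = (normalizer (P : Set G)).subtype k := fun k => by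
    rw [← he, e.apply_symm_apply]
  have h1 := (indBlk_comp_equiv_iff e.symm he' c B).mpr h
  have h2 := (indBlk_comp_equiv_iff e.symm he' c' B).mpr h'
  have h3 := H32.eq_of_induced_normalizer hM (IsDefectGroup.isPGroup hP) h2 h1
    (H32.isDefectGroup_subgroupOf_of_induced hM le_normalizer le_rfl h2 hP)
  ext χ
  rw [← irrComap_mem_blkComap (e := e.symm), h3, irrComap_mem_blkComap]

omit [Finite G] [Finite H] hp in
theorem gl_act {N : Subgroup G} [hN : N.Normal] [Fintype (N.comap ι)] {θ : IrrCharacter N}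
    {φ : IrrCharacter (N.comap ι)} (h : Gl p (fun c : N.comap ι => (θ : N → ℂ) ⟨ι c, c.2⟩) φ)
    (x : H) : Gl p (fun c : N.comap ι => ((NEmb.ofNormal N).act (ι x) θ : N → ℂ) ⟨ι c, c.2⟩)
      ((NEmb.ofNormal (N.comap ι)).act x φ) := by
  obtain ⟨m, h1, h2⟩ := h
  refine ⟨m, ?_, h2⟩
  rw [← h1, ← H5.classInner_comp_equiv ((NEmb.ofNormal (N.comap ι)).cj x) _ (φ : N.comap ι → ℂ)]
  congr 1
  ext c
  simp only [NEmb.act_apply, NEmb.ofNormal_cj, map_mul, map_inv]

theorem covers_of_gl {N C : Type*} [Group N] [Fintype N] [Group C] [Fintype C] (E : NEmb N G)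
    (E' : NEmb C H) (j : C →* N) (hj : ∀ x, E.ι (j x) = ι (E'.ι x))
    (hs : ∀ x, ι x ∈ E.ι.range → x ∈ E'.ι.range) (hM : IsPModular p M) (hN : ¬ p ∣ Nat.card N)
    {θ : IrrCharacter N} (hθ : E.Inv {θ}) {φ : IrrCharacter C}
    (h : ∀ β : IrrCharacter C, Gl p (fun x => (θ : N → ℂ) (j x)) β → β = φ)
    (hB : Covers E.ι B {θ}) (hc : IndBlk M ι c B) : Covers E'.ι c {φ} := by
  have := Fintype.ofFinite G
  have := Fintype.ofFinite H
  obtain ⟨χ, hχ, θ', rfl, ho⟩ := hB
  obtain ⟨ξ, hξ⟩ := IsPBlock.nonempty hc.1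
  obtain ⟨β, hβ⟩ := exists_under E'.ι ξ
  have hi := H32.inv_natCast_mem_locRing hM hN
  have ha := hθ.push_isClassFunction
  have hv : ∀ n : N, push E.ι (blockCoeff {θ'}) (E.ι n) = blockCoeff {θ'} n :=
    push_apply_of_injective E.inj _
  have h1 := hc.om_sub_om hξ hχ ha fun g => push_mem _ _ fun n _ =>
    blockCoeff_mem hM (isPBlock_singleton hM hN θ') n
  rw [ho.om_push E.inj ha, hβ.om_eq E'.inj (isClassFunction_comp ha ι)
    (fun x hx => push_of_not_mem_range _ fun h => hx (hs x h)),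
    om_blockCoeff_of_mem (Set.mem_singleton _)] at h1
  simp only [← hj, hv] at h1
  have hr' : IsCharacter _ fun x => (θ' : N → ℂ) (j x) := H5.isCharacter_comp (irr_isCharacter θ') j
  obtain ⟨m, hm⟩ := H5.exists_nat_classInner hr' (irr_isCharacter β)
  refine ⟨ξ, hξ, β, h β ⟨m, hm, fun hd => ?_⟩, hβ⟩
  obtain ⟨d, hd1⟩ := H5.exists_nat_degree (irr_isCharacter β)
  obtain ⟨k, hk⟩ := H5.degree_dvd_card β.2 hd1
  have d0 : (d : ℂ) ≠ 0 := hd1 ▸ H5.degree_ne_zero β.2
  have k0 : (k : ℂ) ≠ 0 := by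
    rintro h0
    exact Nat.card_pos.ne' (by rw [hk, Nat.cast_eq_zero.1 h0, mul_zero])
  rw [H5.classInner_comm_of_isCharacter hr' (irr_isCharacter β), classInner, hk] at hm
  refine H32.not_mem_locMax_of_sub_one_mem h1 ?_
  simp only [om_eq_div, blockCoeff_singleton, mul_assoc, ← Finset.mul_sum, mul_comm (conj _)]
  rw [(inv_mul_eq_iff_eq_mul₀ (by simp [d0, k0])).1 hm, hd1, mul_div_assoc, mul_div_assoc,
    show ((d * k : ℕ) * m : ℂ) / d = k * m by push_cast; field_simp]
  exact H32.mul_mem_locMax_left hi (H32.mul_mem_locMax_left (irr_apply_mem θ' 1)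
    (H32.mul_mem_locMax_left (natCast_mem _ k) ((H32.natCast_mem_locMax_iff hM).2 hd)))

end Cfsg.Agent.DGN
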