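import Cfsg.Agent.DGN.Defs

set_option autoImplicit false

namespace Cfsg.Agent.DGN

theorem schur_aux {F K m : Type*} [Field F] [Group K] [Fintype K] [Fintype m] [DecidableEq m]
    (ρ : K →* Matrix m m F) (hρ : Submodule.span F (Set.range ρ) = ⊤) (B : Matrix m m F) :
    ∃ c : F, ∑ g, ρ g * B * ρ g⁻¹ = c • 1 ∧ c * Fintype.card m = Fintype.card K * B.trace := by
  have h1 : ∀ X, Commute X (∑ g, ρ g * B * ρ g⁻¹) := fun X => by
    have hX : X ∈ Submodule.span F (Set.range ρ) := hρ ▸ Submodule.mem_top
    induction hX using Submodule.span_induction with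
    | mem x hx =>
      obtain ⟨h, rfl⟩ := hx
      rw [Commute, SemiconjBy, Finset.mul_sum, Finset.sum_mul, ← Equiv.sum_comp (Equiv.mulLeft h⁻¹)]
      refine Finset.sum_congr rfl fun g _ => ?_
      simp only [Equiv.coe_mulLeft, ← mul_assoc, ← map_mul, mul_inv_cancel, one_mul, mul_inv_rev,
        inv_inv]
      rw [map_mul, mul_assoc, mul_assoc, mul_assoc]
    | zero => exact Commute.zero_left _
    | add x y _ _ hx hy => exact hx.add_left hy
    | smul a x _ hx => exact hx.smul_left a
  obtain ⟨c, hc⟩ := Matrix.mem_range_scalar_iff_commute_single'.2 fun i j => h1 (.single i j 1)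
  rw [Matrix.scalar_apply, ← Matrix.smul_one_eq_diagonal] at hc
  refine ⟨c, hc.symm, ?_⟩
  have := congrArg Matrix.trace hc
  rw [Matrix.trace_smul, Matrix.trace_one, Matrix.trace_sum] at this
  rw [← smul_eq_mul, this, Finset.sum_congr rfl fun g _ => by
    rw [Matrix.trace_mul_cycle, ← map_mul, inv_mul_cancel, map_one, one_mul], Finset.sum_const,
    Finset.card_univ, nsmul_eq_mul]

theorem schur {F K m : Type*} [Field F] [Group K] [Fintype K] [Fintype m] [DecidableEq m]
    [Nonempty m] (hK : (Fintype.card K : F) ≠ 0) (ρ : K →* Matrix m m F)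
    (hρ : Submodule.span F (Set.range ρ) = ⊤) : (Fintype.card m : F) ≠ 0 ∧
      ∀ A, ∑ g, (A * ρ g⁻¹).trace • ρ g = ((Fintype.card K : F) / Fintype.card m) • A := by
  have hd : (Fintype.card m : F) ≠ 0 := fun e => by
    obtain ⟨i⟩ := ‹Nonempty m›
    obtain ⟨c, -, h⟩ := schur_aux ρ hρ (.single i i 1)
    rw [e, mul_zero, Matrix.trace_single_eq_same, mul_one] at h
    exact hK h.symm
  refine ⟨hd, fun A => Matrix.ext fun i j => ?_⟩
  choose c h1 h2 using fun l => schur_aux ρ hρ (Matrix.single j l (1 : F) * A)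
  have e : ∀ g, ((A * ρ g⁻¹).trace • ρ g) i j =
      ∑ l : m, (ρ g * (Matrix.single j l (1 : F) * A) * ρ g⁻¹ : Matrix m m F) i l := fun g => by
      rw [Matrix.smul_apply, Matrix.trace, smul_eq_mul, Finset.sum_mul]
      refine Finset.sum_congr rfl fun l _ => ?_
      rw [mul_assoc, mul_assoc, Matrix.mul_apply, Finset.sum_eq_single j
        (fun b _ hb => by rw [Matrix.single_mul_apply_of_ne _ _ _ _ _ hb, mul_zero])
        (fun h => (h (Finset.mem_univ j)).elim), Matrix.single_mul_apply_same, one_mul, mul_comm]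
      rfl
  rw [Matrix.sum_apply, Finset.sum_congr rfl fun g _ => e g, Finset.sum_comm,
    Finset.sum_congr rfl fun l _ => by rw [← Matrix.sum_apply, h1 l], Finset.sum_eq_single i
      (fun b _ hb => by simp [Matrix.one_apply_ne hb.symm]) fun h => (h (Finset.mem_univ i)).elim]
  have := h2 i
  rw [Matrix.trace_single_mul, one_smul] at this
  rw [Matrix.smul_apply, Matrix.smul_apply, Matrix.one_apply_eq, smul_eq_mul, smul_eq_mul, mul_one,
    div_mul_eq_mul_div, ← this, mul_div_cancel_right₀ _ hd]

theorem span_cm {k ι m κ : Type*} [Field k] [Fintype m] {v : κ → Matrix m m k}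
    (h : Submodule.span k (Set.range v) = ⊤) :
    Submodule.span (GF ι k) (Set.range fun x => cm ι (v x)) = ⊤ := by
  classical
  have h1 : ∀ X, cm ι X ∈ Submodule.span (GF ι k) (Set.range fun x => cm ι (v x)) := fun X => by
    have hX : X ∈ Submodule.span k (Set.range v) := h ▸ Submodule.mem_top
    induction hX using Submodule.span_induction with
    | mem x hx => obtain ⟨y, rfl⟩ := hx; exact Submodule.subset_span ⟨y, rfl⟩
    | zero => rw [cm_eq, map_zero]; exact zero_mem _
    | add x y _ _ hx hy => rw [cm_eq, map_add]; exact add_mem hx hy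
    | smul a x _ hx =>
      rw [show cm ι (a • x) = algebraMap k (GF ι k) a • cm ι x from
        Matrix.ext fun i j => by simp [cm_apply]]
      exact Submodule.smul_mem _ _ hx
  refine eq_top_iff.2 fun A _ => ?_
  rw [Matrix.matrix_eq_sum_single A]
  refine Submodule.sum_mem _ fun i _ => Submodule.sum_mem _ fun j _ => ?_
  rw [show Matrix.single i j (A i j) = A i j • cm ι (.single i j 1) from Matrix.ext fun a b => by
    by_cases h : i = a ∧ j = b <;> simp [cm_apply, Matrix.single, h]]
  exact Submodule.smul_mem _ _ (h1 _)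

end Cfsg.Agent.DGN
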